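import Cfsg.Agent.Spec.TwoGen.Chev

/-!
Kernel-checked certificates for two-element generation of the tabulated Chevalley groups.
-/

set_option autoImplicit false

namespace Cfsg.Agent.Spec.TwoGen

theorem bigG2 : checkBig Cfsg.Lie.chevG2 false ([0, 1] : List (Fin 2)) 6 [0, -1] 2 0 1 [] = true := by decide +kernel

theorem bigB2 : checkBig Cfsg.Lie.chevB2 true ([0, 1] : List (Fin 2)) 4 [-1, -1] 3 1 1 [] = true := by decide +kernel

theorem bigD4 : checkBig Cfsg.Lie.chevD4 false ([0, 1, 2, 3] : List (Fin 4)) 6 [-1, 0, 0, 0] 10 1 1 [(10, 21), (10, 22)] = true := by decide +kernel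

theorem bigF4 : checkBig Cfsg.Lie.chevF4 false ([0, 1, 2, 3] : List (Fin 4)) 12 [0, 0, -1, 0] 0 9 1 [(0, 46), (9, 19)] = true := by decide +kernel

theorem bigE6 : checkBig Cfsg.Lie.chevE6 false ([0, 1, 2, 3, 4, 5] : List (Fin 6)) 12 [-1, 0, 0, 0, 0, 0] 0 5 2 [(0, 67), (0, 64), (5, 64), (0, 68)] = true := by decide +kernel

theorem bigE7 : checkBig Cfsg.Lie.chevE7 false ([0, 1, 2, 3, 4, 5, 6] : List (Fin 7)) 18 [-1, 0, 0, 0, 0, 0, 0] 2 18 2 [(2, 125), (2, 124), (2, 104), (2, 121), (2, 122)] = true := by decide +kernel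

theorem bigE8 : checkBig Cfsg.Lie.chevE8 false ([0, 1, 2, 3, 4, 5, 6, 7] : List (Fin 8)) 30 [-1, 0, 0, 0, 0, 0, 0, 0] 0 6 1 [(0, 236), (0, 237), (0, 238), (0, 233), (0, 232), (0, 225)] = true := by decide +kernel

theorem smallD4 : checkSmall Cfsg.Lie.chevD4 2 ([0, 1, 2, 3] : List (Fin 4)) 6 [(1, 1), (16, 1), (7, 1)]
    [.inr (1, [none, none, none]), .inr (21, [none, none, some (18, 1), none, none, none, none]), .inl (1, 18), .inr (11, [none, none, some (6, 1), none, none, none, none])] = true := by decide +kernel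

theorem smallF4 : checkSmall Cfsg.Lie.chevF4 2 ([0, 1, 2, 3] : List (Fin 4)) 12 [(0, 1), (37, 1), (10, 1)]
    [.inr (0, [none, none, none]), .inr (17, [none, some (41, 1), none, none, none, none, none]), .inr (8, [some (21, 1), none, none, some (21, 1), none, none, none, none, some (1, 1)]), .inr (19, [none, some (34, 1), none, none, none, none, none])] = true := by decide +kernel

theorem smallE6 : checkSmall Cfsg.Lie.chevE6 2 ([0, 1, 2, 3, 4, 5] : List (Fin 6)) 12 [(2, 1)]
    [.inr (2, [none]), .inl (2, 62), .inl (2, 68), .inl (2, 57), .inl (2, 63), .inl (2, 71)] = true := by decide +kernel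

theorem smallE7 : checkSmall Cfsg.Lie.chevE7 2 ([0, 1, 2, 3, 4, 5, 6] : List (Fin 7)) 18 [(3, 1)]
    [.inr (3, [none]), .inl (3, 100), .inl (3, 120), .inl (3, 125), .inl (3, 124), .inl (3, 84), .inl (3, 113)] = true := by decide +kernel

theorem smallE8 : checkSmall Cfsg.Lie.chevE8 2 ([0, 1, 2, 3, 4, 5, 6, 7] : List (Fin 8)) 30 [(0, 1)]
    [.inr (0, [none]), .inl (0, 235), .inl (0, 236), .inl (0, 237), .inl (0, 238), .inl (0, 233), .inl (0, 232), .inl (0, 225)] = true := by decide +kernel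

theorem smallB2 : checkSmall Cfsg.Lie.chevB2 3 ([0, 1] : List (Fin 2)) 4 [(1, 1)]
    [.inr (1, [none]), .inl (1, 5)] = true := by decide +kernel

end Cfsg.Agent.Spec.TwoGen
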