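import Cfsg.Agent.Spec.TwoGen.OrthMain

/-!
The simple orthogonal groups of the three families with at least three split planes are generated by
two elements.
-/

set_option autoImplicit false

namespace Cfsg.Agent.Spec.TwoGen.Orth

open QuadraticMap Cfsg.Agent.Classical

universe u v w

variable {F : Type u} [Field F] {V : Type v} [AddCommGroup V] [Module F V] {W : Type w} [AddCommGroup W]
  [Module F W]

theorem map_EQ_le {Q : QuadraticForm F V} {R : QuadraticForm F W} (e : V ≃ₗ[F] W) (h : ∀ v, R (e v) = Q v) :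
    (EQ Q).map (OQCongr e h).toMonoidHom ≤ EQ R := by
  have hpol : ∀ x y, polar R (e x) (e y) = polar Q x y := fun x y => by
    simp [polar, ← map_add, h]
  rw [EQ, MonoidHom.map_closure, Subgroup.closure_le]
  rintro _ ⟨_, ⟨u, a, hu, ha, rfl⟩, rfl⟩
  refine Subgroup.subset_closure ⟨e u, e a, by rw [h, hu], by rw [hpol, ha], ?_⟩
  ext w
  obtain ⟨v, rfl⟩ := e.surjective w
  simp [OQCongr, hpol, h]

/-- From the Eichler subgroup to the simple orthogonal group. -/
theorem exists_pair_POmega {ι : Type} [Fintype ι] [DecidableEq ι] (f : (ι → F) → F)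
    (Qf : QuadraticForm F (ι → F)) (hQf : ∀ v, Qf v = f v) {Q₀ : QuadraticForm F W}
    (h : GoodCore Q₀) (m : ℕ) (e : (ι → F) ≃ₗ[F] HypSpace F (m + 3) W)
    (he : ∀ v, hypExt (m + 3) Q₀ (e v) = Qf v)
    (hpair : ∃ a b, a ∈ EQ (hypExt (m + 3) Q₀) ∧ b ∈ EQ (hypExt (m + 3) Q₀) ∧
      EQ (hypExt (m + 3) Q₀) ≤ Subgroup.closure {a, b}) :
    ∃ a b : Cfsg.POmega F f, Subgroup.closure ({a, b} : Set (Cfsg.POmega F f)) = ⊤ := by
  obtain ⟨h1, h2, h3⟩ := h.hypExt_data m
  obtain ⟨φ⟩ := nonempty_POmega_equiv (Q := hypExt (m + 2) Q₀) f Qf hQf (e.trans (hypSplit (m + 2)))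
    (fun v => by rw [LinearEquiv.trans_apply, hypSplit_spec, he]) h1 h2 h3
  obtain ⟨a, b, ha, hb, hab⟩ := hpair
  have hs : ∀ x, hypAdd (hypExt (m + 2) Q₀) (hypSplit (m + 2) x) = hypExt (m + 3) Q₀ x :=
    hypSplit_spec (m + 2) Q₀
  have hs' : ∀ y, hypExt (m + 3) Q₀ ((hypSplit (m + 2)).symm y) = hypAdd (hypExt (m + 2) Q₀) y := fun y => by
    rw [← hs, LinearEquiv.apply_symm_apply]
  set Φ : OQ (hypExt (m + 3) Q₀) →* OQ (hypAdd (hypExt (m + 2) Q₀)) :=
    (OQCongr (hypSplit (m + 2)) hs).toMonoidHom with hΦ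
  have hle : EQ (hypAdd (hypExt (m + 2) Q₀)) ≤ (EQ (hypExt (m + 3) Q₀)).map Φ := by
    intro x hx
    refine ⟨OQCongr (hypSplit (m + 2)).symm hs' x, map_EQ_le _ hs' ⟨x, hx, rfl⟩, ?_⟩
    ext v <;> simp [hΦ, OQCongr]
  let A : EQ (hypAdd (hypExt (m + 2) Q₀)) := ⟨Φ a, map_EQ_le _ hs ⟨a, ha, rfl⟩⟩
  let B : EQ (hypAdd (hypExt (m + 2) Q₀)) := ⟨Φ b, map_EQ_le _ hs ⟨b, hb, rfl⟩⟩
  have hAB : Subgroup.closure {A, B} = ⊤ := by
    refine Subgroup.map_injective (Subgroup.subtype_injective _) (le_antisymm ?_ ?_)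
    · exact Subgroup.map_mono le_top
    · rw [← MonoidHom.range_eq_map, Subgroup.range_subtype, MonoidHom.map_closure, Set.image_pair]
      refine hle.trans ?_
      calc (EQ (hypExt (m + 3) Q₀)).map Φ ≤ (Subgroup.closure {a, b}).map Φ := Subgroup.map_mono hab
        _ = Subgroup.closure {Φ a, Φ b} := by rw [MonoidHom.map_closure, Set.image_pair]
        _ = _ := rfl
  let π := φ.symm.toMonoidHom.comp (QuotientGroup.mk' (Subgroup.center (EQ (hypAdd (hypExt (m + 2) Q₀)))))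
  refine ⟨π A, π B, ?_⟩
  rw [← Set.image_pair π A B, ← MonoidHom.map_closure, hAB]
  exact Subgroup.map_top_of_surjective π (φ.symm.surjective.comp (QuotientGroup.mk'_surjective _))

variable [Finite F]

theorem three_le_or (F : Type u) [Field F] [Finite F] : 3 ≤ Nat.card F ∨ Nat.card F = 2 := by
  have := Finite.one_lt_card (α := F)
  omega

/-- Odd dimension. -/
theorem exists_pair_odd (hodd : Odd (Nat.card F)) (k : ℕ) :
    ∃ a b : Cfsg.POmega F (Cfsg.quadFormOdd (k + 3) F),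
      Subgroup.closure ({a, b} : Set (Cfsg.POmega F (Cfsg.quadFormOdd (k + 3) F))) = ⊤ := by
  have h2 := two_ne_zero_of_odd hodd
  refine exists_pair_POmega _ (oddQF (k + 3) F) (oddQF_apply _) (goodCore_sq h2) k (oddEquiv (k + 3))
    (oddEquiv_spec _) ?_
  obtain ⟨g, hgE, hg⟩ := exists_coxeter (k := k) (QuadraticMap.sq : QuadraticForm F F)
  have h3 : 3 ≤ Nat.card F := by
    rcases three_le_or F with h | h
    · exact h
    · rw [h] at hodd; exact absurd hodd (by decide)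
  refine exists_pair_big h3 anisotropic_sqQF hg hgE 1 ?_
  rw [id, Set.pair_eq_singleton, Ideal.submodule_span_eq]
  exact Ideal.span_singleton_one

/-- Plus type. -/
theorem exists_pair_plus (k : ℕ) :
    ∃ a b : Cfsg.POmega F (Cfsg.quadFormPlus (k + 3) F),
      Subgroup.closure ({a, b} : Set (Cfsg.POmega F (Cfsg.quadFormPlus (k + 3) F))) = ⊤ := by
  refine exists_pair_POmega _ (plusQF (k + 3) F) (plusQF_apply _) goodCore_zero k (plusEquiv (k + 3))
    (plusEquiv_spec _) ?_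
  obtain ⟨g, hgE, hg⟩ := exists_coxeter (k := k) (0 : QuadraticForm F (Fin 0 → F))
  rcases three_le_or F with h | h
  · exact exists_pair_big h anisotropic_zero_fin0 hg hgE 0 (Subsingleton.elim _ _)
  · exact exists_pair_two_split h hg hgE

/-- Minus type. -/
theorem exists_pair_minus {a b : F} (hA : (binQF a b).Anisotropic) (k : ℕ) :
    ∃ g h : Cfsg.POmega F (Cfsg.quadFormMinus (k + 3) F a b),
      Subgroup.closure ({g, h} : Set (Cfsg.POmega F (Cfsg.quadFormMinus (k + 3) F a b))) = ⊤ := by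
  classical
  refine exists_pair_POmega _ (minusQF (k + 3) a b) (minusQF_apply _ a b) (goodCore_binQF hA) k
    (minusEquiv (k + 3)) (minusEquiv_spec _ a b) ?_
  set w₀ : Fin 2 → F := ![1, 0] with hw0
  set c : F := if a ≠ 0 then 0 else 1 with hc
  set w₁ : Fin 2 → F := ![c, 1] with hw1
  have hQ0 : binQF a b w₀ = 1 := by simp [hw0]
  have hp : polar (binQF a b) w₁ w₀ ≠ 0 := by
    rw [polar_binQF]
    rcases eq_or_ne a 0 with rfl | ha
    · have hD := binDisc_ne_zero hA
      simp [hw0, hw1, hc]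
      intro h2
      exact hD (by linear_combination (-2 * b) * h2)
    · simp [hw0, hw1, hc, ha]
  have hQ1 : binQF a b w₁ ≠ 0 := fun e => by
    simpa [hw1] using congrFun (hA w₁ e) 1
  obtain ⟨g, hgE, hg⟩ := exists_coxeter (k := k) (binQF a b)
  set x : Ix (k + 3) := Sum.inl 0
  have hκ := fl_fl_mon (binQF a b) x (a := w₀) (a' := w₁) (by rw [hQ0]; exact one_ne_zero) hQ1
  have hgE' := mul_mem (mul_mem (fl_mem_EQ (binQF a b) x w₁) (fl_mem_EQ (binQF a b) x w₀)) hgE
  have hM := hκ.mul hg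
  rw [Function.id_comp, Function.comp_id] at hM
  set ρ := ((fun v => v - (polar (binQF a b) w₁ v / binQF a b w₁) • w₁) ∘
    fun v => v - (polar (binQF a b) w₀ v / binQF a b w₀) • w₀) with hρ
  have hρ0 : ρ w₀ = -w₀ + (polar (binQF a b) w₁ w₀ / binQF a b w₁) • w₁ := by
    have hpp : polar (binQF a b) w₀ w₀ = 2 := by rw [polar_self, hQ0, two_nsmul, one_add_one_eq_two]
    have : w₀ - (2 : F) • w₀ = -w₀ := by module
    simp only [hρ, Function.comp_apply, hpp, hQ0, div_one, this, polar_neg_right, neg_div, neg_smul, sub_neg_eq_add]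
  have hspan : Submodule.span F ({w₀, ρ w₀} : Set (Fin 2 → F)) = ⊤ := by
    rw [eq_top_iff]
    rintro v -
    have m0 : w₀ ∈ Submodule.span F ({w₀, ρ w₀} : Set (Fin 2 → F)) := Submodule.subset_span (Set.mem_insert _ _)
    have m1 : w₁ ∈ Submodule.span F ({w₀, ρ w₀} : Set (Fin 2 → F)) := by
      have m : ρ w₀ + w₀ ∈ Submodule.span F ({w₀, ρ w₀} : Set (Fin 2 → F)) :=
        add_mem (Submodule.subset_span (Set.mem_insert_of_mem _ (Set.mem_singleton _))) m0
      rw [show ρ w₀ + w₀ = _ from by rw [hρ0, neg_add_cancel_comm]] at m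
      exact (Submodule.smul_mem_iff _ (div_ne_zero hp hQ1)).1 m
    have hv : v = (v 0 - v 1 * c) • w₀ + v 1 • w₁ := by
      ext i; fin_cases i <;> simp [hw0, hw1]
    rw [hv]
    exact add_mem (Submodule.smul_mem _ _ m0) (Submodule.smul_mem _ _ m1)
  rcases three_le_or F with h | h
  · exact exists_pair_big h hA hM hgE' w₀ hspan
  · exact exists_pair_two_core h hA hM hgE' w₀ hQ0 hspan

end Cfsg.Agent.Spec.TwoGen.Orth
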