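import Cfsg.Agent.Chev.Rules
import Cfsg.Agent.ChevGrp.Torus
import Cfsg.Agent.ChevGrp.Simple
import Cfsg.Agent.Chev.Term
import Cfsg.Agent.Spec.SLGen

/-!
Two elements generating a tabulated Chevalley group over a finite field: kernel-checkable
certificates for the generic case (fields with at least three elements) and for prime fields.
-/

set_option autoImplicit false

open scoped MatrixGroups Matrix
open Cfsg.Lie

namespace Cfsg.Agent.Spec.TwoGen

open Cfsg.Agent.ChevGrp

/-- The beginning of the orbit of a root under a word. -/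
def orb (D : ChevalleyDatum) (w : List (Fin D.rank)) : ℕ → ℕ → List ℕ
  | 0, k => [k]
  | f + 1, k => k :: orb D w f (act D w k)

/-- The exponent of a root on a cocharacter. -/
def expo (D : ChevalleyDatum) (μ : List ℤ) (s : ℕ) : ℤ :=
  ((List.finRange D.rank).map fun j => μ.getD j.val 0 * D.cartan j.val s).sum

/-- Admissible exponents. -/
def okExp (two : Bool) (e : ℤ) : Bool := e == 1 || e == -1 || (two && (e == 2 || e == -2))

section Subgroups

variable {D : ChevalleyDatum} {F : Type*} [Field F] {G : Type*} [Group G] (S : Sys D F G)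

/-- The parameters of a root whose root elements lie in a subgroup. -/
def par (H : Subgroup G) {r : ℕ} (hr : r < D.nroots) : AddSubgroup F where
  carrier := {t | S.x r t ∈ H}
  zero_mem' := by
    show S.x r 0 ∈ H
    have h : S.x r 0 = 1 := by
      have h := S.x_add r hr 0 0
      rwa [add_zero, mul_eq_left] at h
    rw [h]
    exact one_mem H
  add_mem' := fun {a b} ha hb => by
    show S.x r (a + b) ∈ H
    rw [← S.x_add r hr]
    exact mul_mem ha hb
  neg_mem' := fun {a} ha => by
    show S.x r (-a) ∈ H
    rw [← S.x_inv hr]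
    exact inv_mem ha

/-- A subgroup contains the root subgroup of a root. -/
def Full (H : Subgroup G) (r : ℕ) : Prop := r < D.nroots ∧ ∀ t : F, S.x r t ∈ H

variable {S} {len : ℕ → ℕ}

theorem act_mem (hS : Rules D F) (hR : RootTable D len) {H : Subgroup G} {w : List (Fin D.rank)}
    (hn : S.nW w ∈ H) {r : ℕ} (hr : r < D.nroots) {t : F} (ht : S.x r t ∈ H) :
    ∃ c : F, c ≠ 0 ∧ S.x (act D w r) (c * t) ∈ H := by
  obtain ⟨a, ha, hga⟩ := S.conjP_nW hS hR w
  refine ⟨a r, right_ne_zero_of_mul_eq_one (ha r hr), ?_⟩
  rw [← hga r hr t]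
  exact mul_mem (mul_mem hn ht) (inv_mem hn)

theorem full_act (hS : Rules D F) (hR : RootTable D len) {H : Subgroup G} {w : List (Fin D.rank)}
    (hn : S.nW w ∈ H) {r : ℕ} (hr : Full S H r) : Full S H (act D w r) := by
  obtain ⟨a, ha, hga⟩ := S.conjP_nW hS hR w
  refine ⟨hR.act_lt w hr.1, fun t => ?_⟩
  have h0 : a r ≠ 0 := right_ne_zero_of_mul_eq_one (ha r hr.1)
  have h := hga r hr.1 ((a r)⁻¹ * t)
  rw [mul_inv_cancel_left₀ h0] at h
  rw [← h]
  exact mul_mem (mul_mem hn (hr.2 _)) (inv_mem hn)

theorem full_orb (hS : Rules D F) (hR : RootTable D len) {H : Subgroup G} {w : List (Fin D.rank)}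
    (hn : S.nW w ∈ H) (f : ℕ) : ∀ r, Full S H r → ∀ k ∈ orb D w f r, Full S H k := by
  induction f with
  | zero =>
    intro r hr k hk
    rw [orb, List.mem_singleton] at hk
    exact hk ▸ hr
  | succ f ih =>
    intro r hr k hk
    rw [orb, List.mem_cons] at hk
    rcases hk with rfl | hk
    · exact hr
    · exact ih _ (full_act hS hR hn hr) k hk

theorem le_of_full (hS : Rules D F) (H : Subgroup (GL D.Idx F)) (l : List ℕ)
    (hl : ∀ k ∈ l, Full (glSys hS) H k) (hall : ((List.range D.nroots).all fun r => l.contains r) = true) :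
    D.group F ≤ H := by
  rw [group_eq hS, Sys.Gbar, Subgroup.closure_le]
  rintro g ⟨r, hr, t, rfl⟩
  simp only [List.all_eq_true, List.mem_range, List.contains_iff_mem] at hall
  exact (hl r (hall r hr)).2 t

theorem exists_pair_of_le {A : Subgroup G} {a b : G} (ha : a ∈ A) (hb : b ∈ A)
    (h : A ≤ Subgroup.closure {a, b}) :
    ∃ a b : A, Subgroup.closure ({a, b} : Set A) = ⊤ := by
  refine ⟨⟨a, ha⟩, ⟨b, hb⟩, ?_⟩
  apply Subgroup.map_injective A.subtype_injective
  rw [MonoidHom.map_closure, ← MonoidHom.range_eq_map, Subgroup.range_subtype]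
  refine le_antisymm ?_ (le_trans h (le_of_eq ?_))
  · rw [Subgroup.closure_le]
    rintro _ ⟨y, -, rfl⟩
    exact y.2
  · simp [Set.image_pair]

theorem x_mem_group (hS : Rules D F) {r : ℕ} (hr : r < D.nroots) (t : F) :
    (glSys hS).x r t ∈ D.group F := by
  rw [group_eq hS]
  exact (glSys hS).x_mem_Gbar hr t

theorem nW_mem_group (hS : Rules D F) (hR : RootTable D len) (w : List (Fin D.rank)) :
    (glSys hS).nW w ∈ D.group F := by
  rw [group_eq hS]
  exact (glSys hS).Nbar_le_Gbar hS hR ((glSys hS).nW_mem_Nbar w)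

end Subgroups

/-! ### Prime fields -/

/-- Expand a word over roots and the second generator. -/
def expand (bW : List (ℕ × ℤ)) (W : List (Option (ℕ × ℤ))) : List (ℕ × ℤ) :=
  W.flatMap fun x => match x with | none => bW | some y => [y]

/-- The letters of a word with constant parameters. -/
def letters (W : List (ℕ × ℤ)) : List Chev.Letter := W.map fun y => ⟨y.1, y.2, 0, 0⟩

/-- Collect a list of terms and reduce the coefficients modulo `p`. -/
def normMod (p : ℕ) (L : List Chev.Term) : List Chev.Term :=
  (Chev.collect id L).filterMap fun T => if T.c % (p : ℤ) == 0 then none else some { T with c := T.c % (p : ℤ) }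

/-- Apply a word, reducing after each letter. -/
def applyMod (D : ChevalleyDatum) (p : ℕ) (W : List Chev.Letter) (V : List Chev.Term) : List Chev.Term :=
  W.foldr (fun L V => normMod p (Chev.step D L V)) V

/-- Two constant words agree modulo `p`. -/
def wordEq (D : ChevalleyDatum) (p : ℕ) (W V : List (ℕ × ℤ)) : Bool :=
  (List.range (D.rank + D.nroots)).all fun c =>
    (normMod p (applyMod D p (letters W) (Chev.unitCol c) ++
      Chev.negV (applyMod D p (letters V) (Chev.unitCol c)))).isEmpty

/-- Run a certificate for a prime field: the roots known to be full, provided all checks succeed. A step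
is a commutator of two known roots or a word over known roots and the second generator. -/
def runSmall (D : ChevalleyDatum) (p : ℕ) (w : List (Fin D.rank)) (f : ℕ) (bW : List (ℕ × ℤ)) :
    List ((ℕ × ℕ) ⊕ (ℕ × List (Option (ℕ × ℤ)))) → List ℕ → Option (List ℕ)
  | [], known => some known
  | .inl (r, s) :: st, known =>
    match D.commTerms r s with
    | [(k, c, 1, 1)] =>
      if (decide (k < D.nroots) && c % (p : ℤ) != 0 && s != r && s != D.neg r &&
        known.contains r && known.contains s) then runSmall D p w f bW st (orb D w f k ++ known)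
      else none
    | _ => none
  | .inr (k, W) :: st, known =>
    if (decide (k < D.nroots) && (W.all fun x => match x with | none => true | some y => known.contains y.1) &&
      wordEq D p (expand bW W) [(k, 1)]) then runSmall D p w f bW st (orb D w f k ++ known)
    else none

/-- The certificate check for a prime field. -/
def checkSmall (D : ChevalleyDatum) (p : ℕ) (w : List (Fin D.rank)) (f : ℕ) (bW : List (ℕ × ℤ))
    (st : List ((ℕ × ℕ) ⊕ (ℕ × List (Option (ℕ × ℤ))))) : Bool :=
  (bW.all fun y => decide (y.1 < D.nroots)) &&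
    match runSmall D p w f bW st [] with
    | none => false
    | some l => (List.range D.nroots).all fun r => l.contains r

section Small

variable {D : ChevalleyDatum} {F : Type*} [Field F] {p : ℕ}

/-- The group element of a word with constant parameters. -/
noncomputable def wordEl (F : Type*) [Field F] (D : ChevalleyDatum) (W : List (ℕ × ℤ)) : GL D.Idx F :=
  (W.map fun y => xGL D F y.1 (y.2 : F)).prod

theorem evalV_normMod [CharP F p] (t u : F) (L : List Chev.Term) :
    Chev.evalV D t u (normMod p L) = Chev.evalV D t u L := by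
  rw [← Chev.evalV_collect t u id (fun T => ⟨rfl, rfl⟩) L, normMod]
  generalize Chev.collect id L = M
  induction M with
  | nil => rfl
  | cons T M ih =>
    rw [List.filterMap_cons, Chev.evalV_cons (D := D) t u T]
    split
    · next hnone =>
      split_ifs at hnone with h
      rw [ih]
      have hT : (T.c : F) = 0 :=
        (CharP.intCast_eq_zero_iff F p _).2 (Int.dvd_of_emod_eq_zero (by simpa using h))
      funext i
      simp [Chev.Term.val, hT]
    · next T' hsome =>
      split_ifs at hsome with h
      rw [Option.some.injEq] at hsome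
      subst hsome
      rw [Chev.evalV_cons, ih]
      congr 1
      funext i
      have hT : ((T.c % (p : ℤ) : ℤ) : F) = (T.c : F) :=
        (CharP.intCast_eq_intCast F p).2 (Int.emod_emod_of_dvd _ dvd_rfl)
      simp only [Chev.Term.val, hT]

theorem mulVec_applyMod [CharP F p] {W : List Chev.Letter} (hW : ∀ L ∈ W, L.r < D.nroots) {t u : F}
    {V : List Chev.Term} :
    D.wordMat F (Chev.evalWord t u W) *ᵥ Chev.evalV D t u V = Chev.evalV D t u (applyMod D p W V) := by
  induction W with
  | nil => simp [ChevalleyDatum.wordMat, Chev.evalWord, applyMod]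
  | cons L W ih =>
    have h1 : applyMod D p (L :: W) V = normMod p (Chev.step D L (applyMod D p W V)) := rfl
    have h2 : D.wordMat F (Chev.evalWord t u (L :: W)) =
        D.x F L.r (L.param t u) * D.wordMat F (Chev.evalWord t u W) := by
      simp [ChevalleyDatum.wordMat, Chev.evalWord]
    rw [h1, h2, ← Matrix.mulVec_mulVec, ih fun x hx => hW x (List.mem_cons_of_mem _ hx),
      Chev.x_mulVec_evalV (hW L (by simp)), evalV_normMod]

theorem wordEl_eq [CharP F p] (hS : Rules D F) (W V : List (ℕ × ℤ))
    (hW : ∀ y ∈ W, y.1 < D.nroots) (hV : ∀ y ∈ V, y.1 < D.nroots) (h : wordEq D p W V = true) :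
    wordEl F D W = wordEl F D V := by
  apply Units.ext
  have e : ∀ U : List (ℕ × ℤ), (wordEl F D U : Matrix D.Idx D.Idx F) =
      D.wordMat F (Chev.evalWord (1 : F) 1 (letters U)) := by
    intro U
    have := val_word hS (U.map fun y => (y.1, (y.2 : F)))
    rw [List.map_map] at this
    refine this.trans ?_
    congr 1
    simp [Chev.evalWord, letters, Chev.Letter.param]
  rw [e, e]
  have hl : ∀ U : List (ℕ × ℤ), (∀ y ∈ U, y.1 < D.nroots) → ∀ L ∈ letters U, L.r < D.nroots := by
    intro U hU L hL
    simp only [letters, List.mem_map] at hL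
    obtain ⟨y, hy, rfl⟩ := hL
    exact hU y hy
  refine Chev.ext_of_mulVec_single fun j => ?_
  rw [← Chev.evalV_unitCol 1 1 j, mulVec_applyMod (p := p) (hl W hW), mulVec_applyMod (p := p) (hl V hV),
    ← add_neg_eq_zero, ← Chev.evalV_negV, ← Chev.evalV_append, ← evalV_normMod (p := p)]
  simp only [wordEq, List.all_eq_true, List.mem_range, List.isEmpty_iff] at h
  rw [h _ (Chev.code_lt D j)]
  exact Chev.evalV_nil 1 1

theorem full_of_one [Fact p.Prime] [CharP F p] [Fintype F] (hF : Fintype.card F = p) (hS : Rules D F)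
    {H : Subgroup (GL D.Idx F)} {r : ℕ} (hr : r < D.nroots) (h : (glSys hS).x r 1 ∈ H) :
    Full (glSys hS) H r := by
  refine ⟨hr, fun t => ?_⟩
  have hbij : Function.Bijective (ZMod.castHom (dvd_refl p) F) :=
    (ZMod.castHom_bijective F hF)
  obtain ⟨z, rfl⟩ := hbij.2 t
  have : (ZMod.castHom (dvd_refl p) F) z = z.val • (1 : F) := by
    conv_lhs => rw [← ZMod.natCast_zmod_val z]
    rw [map_natCast, nsmul_one]
  rw [this]
  exact AddSubgroup.nsmul_mem (par (glSys hS) H hr) h z.val

theorem comm_step (hS : Rules D F) {H : Subgroup (GL D.Idx F)} {r s k : ℕ} {c : ℤ}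
    (hterms : D.commTerms r s = [(k, c, 1, 1)]) (hk : k < D.nroots) (hc : (c : F) ≠ 0)
    (hsr : s ≠ r) (hsn : s ≠ D.neg r) (hr : Full (glSys hS) H r) (hs : Full (glSys hS) H s) :
    Full (glSys hS) H k := by
  refine ⟨hk, fun t => ?_⟩
  have hcc : (c : F) * (c : F)⁻¹ = 1 := mul_inv_cancel₀ hc
  have h := (glSys hS).comm r hr.1 s hs.1 hsr hsn (-((c : F)⁻¹ * t)) 1
  simp only [ChevalleyDatum.commWord, hterms, List.map_cons, List.map_nil, List.prod_cons, List.prod_nil,
    mul_one, pow_one, neg_neg, ← mul_assoc, hcc, one_mul] at h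
  rw [show (glSys hS).x k t =
    ((glSys hS).x r (-((c : F)⁻¹ * t)) * (glSys hS).x s 1)⁻¹ *
      ((glSys hS).x s 1 * (glSys hS).x r (-((c : F)⁻¹ * t))) by rw [h, inv_mul_cancel_left]]
  exact mul_mem (inv_mem (mul_mem (hr.2 _) (hs.2 _))) (mul_mem (hs.2 _) (hr.2 _))

theorem exists_pair_small [Fact p.Prime] [CharP F p] [Fintype F] (hF : Fintype.card F = p)
    (hS : Rules D F) (w : List (Fin D.rank)) (f : ℕ) (bW : List (ℕ × ℤ))
    (st : List ((ℕ × ℕ) ⊕ (ℕ × List (Option (ℕ × ℤ))))) (hchk : checkSmall D p w f bW st = true) :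
    ∃ a b : D.group F, Subgroup.closure ({a, b} : Set (D.group F)) = ⊤ := by
  obtain ⟨len, hR⟩ := hS.root
  simp only [checkSmall, Bool.and_eq_true, List.all_eq_true, decide_eq_true_eq] at hchk
  obtain ⟨hbW, hchk⟩ := hchk
  have hmem : ∀ U : List (ℕ × ℤ), (∀ y ∈ U, y.1 < D.nroots) → wordEl F D U ∈ D.group F := fun U hU =>
    list_prod_mem fun g hg => by
      obtain ⟨y, hy, rfl⟩ := List.mem_map.1 hg
      exact x_mem_group hS (hU y hy) _
  refine exists_pair_of_le (nW_mem_group hS hR w) (hmem bW hbW) ?_
  set H := Subgroup.closure {(glSys hS).nW w, wordEl F D bW}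
  have hn : (glSys hS).nW w ∈ H := Subgroup.subset_closure (Set.mem_insert _ _)
  have hb : wordEl F D bW ∈ H := Subgroup.subset_closure (Set.mem_insert_of_mem _ rfl)
  have key : ∀ (st : List ((ℕ × ℕ) ⊕ (ℕ × List (Option (ℕ × ℤ))))) (known : List ℕ),
      (∀ k ∈ known, Full (glSys hS) H k) → ∀ l, runSmall D p w f bW st known = some l →
      ∀ k ∈ l, Full (glSys hS) H k := by
    intro st
    induction st with
    | nil =>
      intro known hk l hl
      rw [runSmall, Option.some.injEq] at hl
      exact hl ▸ hk
    | cons x st ih =>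
      obtain ⟨r, s⟩ | ⟨k, W⟩ := x
      · intro known hk l hl
        rw [runSmall] at hl
        split at hl
        · next k c hterms =>
          split_ifs at hl with hc
          simp only [Bool.and_eq_true, decide_eq_true_eq, bne_iff_ne, List.contains_iff_mem] at hc
          obtain ⟨⟨⟨⟨⟨hk0, hc1⟩, hsr⟩, hsn⟩, hrk⟩, hsk⟩ := hc
          refine ih _ ?_ l hl
          intro j hj
          rcases List.mem_append.1 hj with hj | hj
          · have hc0 : (c : F) ≠ 0 := fun e =>
              hc1 (Int.emod_eq_zero_of_dvd ((CharP.intCast_eq_zero_iff F p c).1 e))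
            exact full_orb hS hR hn f k (comm_step hS hterms hk0 hc0 hsr hsn (hk _ hrk) (hk _ hsk)) j hj
          · exact hk j hj
        · simp at hl
      intro known hk l hl
      rw [runSmall] at hl
      split_ifs at hl with hc
      simp only [Bool.and_eq_true, decide_eq_true_eq, List.all_eq_true] at hc
      obtain ⟨⟨hk0, hW⟩, heq⟩ := hc
      refine ih _ ?_ l hl
      intro j hj
      rcases List.mem_append.1 hj with hj | hj
      swap
      · exact hk j hj
      refine full_orb hS hR hn f k (full_of_one hF hS hk0 ?_) j hj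
      have hlt : ∀ y ∈ expand bW W, y.1 < D.nroots := by
        intro y hy
        simp only [expand, List.mem_flatMap] at hy
        obtain ⟨_ | z, hz, hy⟩ := hy
        · exact hbW y hy
        · rw [List.mem_singleton] at hy
          subst hy
          have := hW _ hz
          simp only [List.contains_iff_mem] at this
          exact (hk _ this).1
      have e := wordEl_eq (F := F) hS (expand bW W) [(k, 1)] hlt (by simpa using hk0) heq
      have ex : (glSys hS).x k 1 = wordEl F D (expand bW W) := by
        rw [e]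
        show xGL D F k 1 = _
        simp [wordEl]
      rw [ex]
      clear ex e hlt heq
      induction W with
      | nil => exact one_mem H
      | cons z W ihW =>
        have hrest := ihW fun y hy => hW y (List.mem_cons_of_mem _ hy)
        simp only [expand, List.flatMap_cons, wordEl, List.map_append, List.prod_append] at hrest ⊢
        refine mul_mem ?_ hrest
        rcases z with _ | z
        · exact hb
        · have := hW _ List.mem_cons_self
          simp only [List.contains_iff_mem] at this
          simp only [List.map_cons, List.map_nil, List.prod_cons, List.prod_nil, mul_one]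
          exact (hk _ this).2 _
  cases hl : runSmall D p w f bW st [] with
  | none => simp [hl] at hchk
  | some l =>
    simp only [hl] at hchk
    exact le_of_full hS H l (key st [] (by simp) l hl) (by simpa [List.all_eq_true] using hchk)

end Small

/-! ### Fields with at least three elements -/

/-- Run a list of commutator steps. -/
def runComm (D : ChevalleyDatum) (w : List (Fin D.rank)) (f : ℕ) :
    List (ℕ × ℕ) → List ℕ → Option (List ℕ)
  | [], known => some known
  | (r, s) :: st, known =>
    match D.commTerms r s with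
    | [(k, c, 1, 1)] =>
      if (decide (k < D.nroots) && (c == 1 || c == -1) && s != r && s != D.neg r &&
        known.contains r && known.contains s) then runComm D w f st (orb D w f k ++ known)
      else none
    | _ => none

/-- The certificate check for fields with at least three elements. -/
def checkBig (D : ChevalleyDatum) (two : Bool) (w : List (Fin D.rank)) (f : ℕ) (μ : List ℤ)
    (r s kr : ℕ) (st : List (ℕ × ℕ)) : Bool :=
  decide (r < D.nroots) && decide (s < D.nroots) && expo D μ r == 0 && okExp two (expo D μ s) &&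
    okExp two (expo D μ (act D w.reverse s)) &&
    okExp two (expo D μ ((act D w)^[kr] r)) &&
    match runComm D w f st (orb D w f ((act D w)^[kr] r) ++ orb D w f s) with
    | none => false
    | some l => (List.range D.nroots).all fun r => l.contains r

section Big

variable {D : ChevalleyDatum} {F : Type*} [Field F]

theorem tau_conj (hS : Rules D F) {len : ℕ → ℕ} (hR : RootTable D len) (c : Fin D.rank → Fˣ)
    {s : ℕ} (hs : s < D.nroots) (t : F) :
    (glSys hS).tau hS hR (glSys_HMul hS hR) c * (glSys hS).x s t *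
        ((glSys hS).tau hS hR (glSys_HMul hS hR) c)⁻¹ =
      (glSys hS).x s (((∏ j : Fin D.rank, c j ^ D.cartan j s : Fˣ) : F) * t) := by
  classical
  induction c using Pi.mulSingle_induction generalizing t with
  | one => simp
  | mul a b ha hb =>
    have e : (∏ j : Fin D.rank, (a * b) j ^ D.cartan j s : Fˣ) =
        (∏ j : Fin D.rank, a j ^ D.cartan j s) * ∏ j : Fin D.rank, b j ^ D.cartan j s := by
      simp only [Pi.mul_apply, mul_zpow, Finset.prod_mul_distrib]
    rw [map_mul, e, Units.val_mul, mul_assoc (_ : F) _ t, ← ha, ← hb]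
    simp [mul_assoc]
  | mulSingle i u =>
    rw [Sys.tau, MonoidHom.noncommPiCoprod_mulSingle,
      Finset.prod_eq_single i (fun j _ hj => by simp [Pi.mulSingle_eq_of_ne hj]) (by simp),
      Pi.mulSingle_eq_same, Units.val_zpow_eq_zpow_val]
    exact (glSys hS).conjP_hI hS hR i u.ne_zero s hs t

theorem exists_pair_big [Fintype F] (hq : 3 ≤ Fintype.card F) (two : Bool)
    (h2 : two = true → 4 ≤ Fintype.card F)
    (hS : Rules D F) (w : List (Fin D.rank)) (f : ℕ) (μ : List ℤ) (r s kr : ℕ) (st : List (ℕ × ℕ))
    (hchk : checkBig D two w f μ r s kr st = true) :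
    ∃ a b : D.group F, Subgroup.closure ({a, b} : Set (D.group F)) = ⊤ := by
  classical
  obtain ⟨len, hR⟩ := hS.root
  simp only [checkBig, Bool.and_eq_true, decide_eq_true_eq, beq_iff_eq] at hchk
  obtain ⟨⟨⟨⟨⟨⟨hr, hs⟩, her⟩, hes⟩, heu⟩, hek⟩, hrun⟩ := hchk
  set S := glSys hS with hSdef
  set τ := S.tau hS hR (glSys_HMul hS hR) with hτ
  obtain ⟨ζ, hζ⟩ := IsCyclic.exists_generator (α := Fˣ)
  have hord : orderOf ζ = Fintype.card F - 1 := by
    rw [orderOf_eq_card_of_forall_mem_zpowers hζ, Nat.card_units, Nat.card_eq_fintype_card]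
  set c : Fin D.rank → Fˣ := fun j => ζ ^ μ.getD j.val 0 with hcdef
  set h := τ c with hh
  have hχ : ∀ u, (∏ j : Fin D.rank, c j ^ D.cartan j u : Fˣ) = ζ ^ expo D μ u := by
    intro u
    have e : ∀ l : List (Fin D.rank), ((l.map fun j => c j ^ D.cartan j u).prod : Fˣ) =
        ζ ^ ((l.map fun j => μ.getD j.val 0 * D.cartan j.val u).sum) := by
      intro l
      induction l with
      | nil => simp
      | cons a l ih => rw [List.map_cons, List.prod_cons, ih, List.map_cons, List.sum_cons, zpow_add, hcdef, ← zpow_mul]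
    rw [Fin.prod_univ_def, e (List.finRange D.rank)]
    rfl
  have hconj : ∀ u < D.nroots, ∀ t : F, h * S.x u t * h⁻¹ = S.x u (((ζ ^ expo D μ u : Fˣ) : F) * t) := by
    intro u hu t
    rw [hh, hτ, tau_conj hS hR c hu t, hχ]
  -- squares are powers of admissible characters
  have hgen : ∀ e, okExp two e = true → ((ζ ^ e : Fˣ) ≠ 1) ∧ ∀ v : Fˣ, ∃ k : ℤ, (ζ ^ e) ^ k = v ^ 2 := by
    intro e he
    simp only [okExp, Bool.or_eq_true, Bool.and_eq_true, beq_iff_eq] at he
    refine ⟨fun h1 => ?_, fun v => ?_⟩
    · rw [← orderOf_dvd_iff_zpow_eq_one, hord] at h1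
      have h1' := Int.natAbs_dvd_natAbs.2 h1
      rw [Int.natAbs_natCast] at h1'
      rcases he with (rfl | rfl) | ⟨ht, rfl | rfl⟩
      all_goals first
        | (have := Nat.le_of_dvd (by decide) h1'; omega)
        | (have := Nat.le_of_dvd (by decide) h1'; have := h2 ht; simp at this h1'; omega)
    · obtain ⟨k, hk⟩ := Subgroup.mem_zpowers_iff.1 (hζ v)
      rcases he with (rfl | rfl) | ⟨-, rfl | rfl⟩
      · exact ⟨2 * k, by rw [← hk, ← zpow_natCast, ← zpow_mul, ← zpow_mul]; congr 1; push_cast; ring⟩
      · exact ⟨-(2 * k), by rw [← hk, ← zpow_natCast, ← zpow_mul, ← zpow_mul]; congr 1; push_cast; ring⟩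
      · exact ⟨k, by rw [← hk, ← zpow_natCast, ← zpow_mul, ← zpow_mul]; congr 1; push_cast; ring⟩
      · exact ⟨-k, by rw [← hk, ← zpow_natCast, ← zpow_mul, ← zpow_mul]; congr 1; push_cast; ring⟩
  set n := S.nW w with hn_def
  set a := h * S.x r 1 with ha_def
  set b := S.x s 1 * n with hb_def
  have hhG : h ∈ D.group F := by
    rw [group_eq hS]
    exact S.Nbar_le_Gbar hS hR (S.Hbar_le_Nbar (by rw [← S.tau_range hS hR (glSys_HMul hS hR)]; exact ⟨c, rfl⟩))
  refine exists_pair_of_le (a := a) (b := b) (mul_mem hhG (x_mem_group hS hr 1))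
    (mul_mem (x_mem_group hS hs 1) (nW_mem_group hS hR w)) ?_
  set H := Subgroup.closure {a, b}
  have haH : a ∈ H := Subgroup.subset_closure (Set.mem_insert _ _)
  have hbH : b ∈ H := Subgroup.subset_closure (Set.mem_insert_of_mem _ rfl)
  -- the torus element
  have hcomm : Commute h (S.x r 1) := by
    have := hconj r hr 1
    rw [her, zpow_zero, Units.val_one, one_mul, mul_inv_eq_iff_eq_mul] at this
    exact this
  have hxq : S.x r 1 ^ Fintype.card F = 1 := by
    have e : ∀ k : ℕ, S.x r 1 ^ k = S.x r (k : F) := by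
      intro k
      induction k with
      | zero =>
        have h0 := S.x_add r hr 0 0
        rw [add_zero, mul_eq_left] at h0
        simp [h0]
      | succ k ih => rw [pow_succ, ih, S.x_add r hr, Nat.cast_succ]
    rw [e, FiniteField.cast_card_eq_zero]
    have h0 := S.x_add r hr 0 0
    rwa [add_zero, mul_eq_left] at h0
  have hhH : h ∈ H := by
    have : a ^ Fintype.card F = h := by
      rw [ha_def, hcomm.mul_pow, hxq, mul_one, hh, ← map_pow]
      congr 1
      funext j
      rw [Pi.pow_apply]
      ext
      rw [Units.val_pow_eq_pow_val, FiniteField.pow_card]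
    rw [← this]
    exact pow_mem haH _
  have hxrH : S.x r 1 ∈ H := by
    rw [show S.x r 1 = h⁻¹ * a by rw [ha_def, inv_mul_cancel_left]]
    exact mul_mem (inv_mem hhH) haH
  have hfull : ∀ u < D.nroots, okExp two (expo D μ u) = true → ∀ t : F, t ≠ 0 → S.x u t ∈ H →
      Full S H u := by
    intro u hu he t ht htH
    refine ⟨hu, fun v => ?_⟩
    have hz : ∀ (k : ℤ), ∀ z ∈ par S H hu, (((ζ ^ expo D μ u) ^ k : Fˣ) : F) * z ∈ par S H hu := by
      intro k z hz
      induction k generalizing z with
      | zero => simpa using hz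
      | succ k ih =>
        rw [zpow_add_one, Units.val_mul, mul_assoc]
        refine ih _ ?_
        show S.x u _ ∈ H
        rw [← hconj u hu z]
        exact mul_mem (mul_mem hhH hz) (inv_mem hhH)
      | pred k ih =>
        rw [zpow_sub_one, Units.val_mul, mul_assoc]
        refine ih _ ?_
        show S.x u _ ∈ H
        have e := hconj u hu ((((ζ ^ expo D μ u)⁻¹ : Fˣ) : F) * z)
        rw [Units.mul_inv_cancel_left] at e
        rw [show S.x u ((((ζ ^ expo D μ u)⁻¹ : Fˣ) : F) * z) = h⁻¹ * S.x u z * h by rw [← e]; group]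
        exact mul_mem (mul_mem (inv_mem hhH) hz) hhH
    have htop := SLGen.addSubgroup_eq_top_of_sq (par S H hu) (s := t) htH ht fun v hv z hz' => by
      obtain ⟨k, hk⟩ := (hgen _ he).2 (Units.mk0 v hv)
      have := hz k z hz'
      rwa [hk, Units.val_pow_eq_pow_val, Units.val_mk0] at this
    exact (htop ▸ AddSubgroup.mem_top v : v ∈ par S H hu)
  -- the root subgroup of `s`
  set u := act D w.reverse s with hu_def
  have hu : u < D.nroots := hR.act_lt _ hs
  obtain ⟨η, hη, hnconj⟩ := S.conjP_nW hS hR w
  have hus : act D w u = s := hR.act_act_reverse w hs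
  have hη0 : η u ≠ 0 := right_ne_zero_of_mul_eq_one (hη u hu)
  set h' := n * h * n⁻¹ with hh'
  have hh'conj : ∀ t : F, h' * S.x s t * h'⁻¹ = S.x s (((ζ ^ expo D μ u : Fˣ) : F) * t) := by
    intro t
    have e0 := hnconj u hu ((η u)⁻¹ * t)
    rw [mul_inv_cancel_left₀ hη0, hus] at e0
    have e1 := hnconj u hu (((ζ ^ expo D μ u : Fˣ) : F) * ((η u)⁻¹ * t))
    rw [hus, mul_left_comm (η u), mul_inv_cancel_left₀ hη0] at e1
    rw [← e1, ← hconj u hu, ← e0, hh', hn_def]
    group
  have hh'comm : Commute h' h := by
    have h1 : h ∈ S.Hbar := by rw [← S.tau_range hS hR (glSys_HMul hS hR)]; exact ⟨c, rfl⟩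
    exact glSys_Hbar_comm hS hR _ (S.nW_conj_Hbar hS hR w h1) _ h1
  set α : F := ((ζ ^ expo D μ u : Fˣ) : F) with hα
  set β : F := ((ζ ^ expo D μ s : Fˣ) : F) with hβ
  have hz : b * h * b⁻¹ = S.x s (1 - α) * h' := by
    have e := hh'conj (-1)
    rw [← S.x_inv hs, mul_neg_one] at e
    calc b * h * b⁻¹ = S.x s 1 * (h' * (S.x s 1)⁻¹ * h'⁻¹) * h' := by rw [hb_def, hh']; group
      _ = _ := by rw [e, S.x_add s hs, sub_eq_add_neg]
  have hsfull : Full S H s := by
    refine hfull s hs hes ((1 - α) * (1 - β)) (mul_ne_zero ?_ ?_) ?_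
    · rw [sub_ne_zero]
      exact fun e => (hgen _ heu).1 (Units.ext (by simpa [hα] using e.symm))
    · rw [sub_ne_zero]
      exact fun e => (hgen _ hes).1 (Units.ext (by simpa [hβ] using e.symm))
    have e := hconj s hs (-(1 - α))
    rw [← S.x_inv hs] at e
    have : (b * h * b⁻¹) * h * (b * h * b⁻¹)⁻¹ * h⁻¹ = S.x s ((1 - α) * (1 - β)) := by
      rw [hz]
      calc S.x s (1 - α) * h' * h * (S.x s (1 - α) * h')⁻¹ * h⁻¹
          = S.x s (1 - α) * (h' * h * h'⁻¹) * (S.x s (1 - α))⁻¹ * h⁻¹ := by group
        _ = S.x s (1 - α) * (h * (S.x s (1 - α))⁻¹ * h⁻¹) := by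
          rw [hh'comm.eq, mul_inv_cancel_right]; group
        _ = _ := by rw [e, S.x_add s hs, ← hβ]; congr 1; ring
    rw [← this]
    have hbh := mul_mem (mul_mem hbH hhH) (inv_mem hbH)
    exact mul_mem (mul_mem (mul_mem hbh hhH) (inv_mem hbh)) (inv_mem hhH)
  have hnH : n ∈ H := by
    rw [show n = (S.x s 1)⁻¹ * b by rw [hb_def, inv_mul_cancel_left]]
    exact mul_mem (inv_mem (hsfull.2 1)) hbH
  have horbit : ∀ k : ℕ, (act D w)^[k] r < D.nroots ∧ ∃ t : F, t ≠ 0 ∧ S.x ((act D w)^[k] r) t ∈ H := by
    intro k
    induction k with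
    | zero => exact ⟨hr, 1, one_ne_zero, hxrH⟩
    | succ k ih =>
      obtain ⟨hlt, t, ht, htH⟩ := ih
      obtain ⟨d, hd, hdH⟩ := act_mem hS hR hnH hlt htH
      rw [Function.iterate_succ_apply']
      exact ⟨hR.act_lt w hlt, _, mul_ne_zero hd ht, hdH⟩
  obtain ⟨hklt, t, ht, htH⟩ := horbit kr
  have hkfull := hfull _ hklt hek t ht htH
  have key : ∀ (st : List (ℕ × ℕ)) (known : List ℕ), (∀ k ∈ known, Full S H k) →
      ∀ l, runComm D w f st known = some l → ∀ k ∈ l, Full S H k := by
    intro st
    induction st with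
    | nil =>
      intro known hk l hl
      rw [runComm, Option.some.injEq] at hl
      exact hl ▸ hk
    | cons x st ih =>
      obtain ⟨r', s'⟩ := x
      intro known hk l hl
      rw [runComm] at hl
      split at hl
      · next k c hterms =>
        split_ifs at hl with hc
        simp only [Bool.and_eq_true, Bool.or_eq_true, decide_eq_true_eq, beq_iff_eq, bne_iff_ne,
          List.contains_iff_mem] at hc
        obtain ⟨⟨⟨⟨⟨hk0, hc1⟩, hsr⟩, hsn⟩, hrk⟩, hsk⟩ := hc
        refine ih _ ?_ l hl
        intro j hj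
        rcases List.mem_append.1 hj with hj | hj
        · exact full_orb hS hR hnH f k (comm_step hS hterms hk0 (by rcases hc1 with rfl | rfl <;> simp) hsr hsn (hk _ hrk) (hk _ hsk)) j hj
        · exact hk j hj
      · simp at hl
  cases hl : runComm D w f st (orb D w f ((act D w)^[kr] r) ++ orb D w f s) with
  | none => simp [hl] at hrun
  | some l =>
    simp only [hl] at hrun
    refine le_of_full hS H l (key st _ (fun j hj => ?_) l hl) hrun
    rcases List.mem_append.1 hj with hj | hj
    · exact full_orb hS hR hnH f _ hkfull j hj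
    · exact full_orb hS hR hnH f _ hsfull j hj

end Big

end Cfsg.Agent.Spec.TwoGen
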