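import Cfsg.Agent.Spec.TwoGen.OrthMono
import Cfsg.Agent.Classical.OrthFinal

/-!
Two generators of the Eichler subgroup of an orthogonal group with at least three split planes and
of the simple orthogonal groups.
-/

set_option autoImplicit false

namespace Cfsg.Agent.Spec.TwoGen.Orth

open QuadraticMap Cfsg.Agent.Classical

universe u w

variable {F : Type u} [Field F] {W : Type w} [AddCommGroup W] [Module F W]

section General

variable {n : ℕ} {Q₀ : QuadraticForm F W}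

local notation "Q" => hypExt n Q₀

theorem Mon.pl_ne {g : OQ Q} {τ : Ix n → Ix n} {ρ : W → W} (hg : Mon Q₀ g τ ρ) {x y : Ix n}
    (h : pl x ≠ pl y) : pl (τ x) ≠ pl (τ y) := by
  intro e
  obtain ⟨s, hs, hx⟩ := hg.1 x
  obtain ⟨t, ht, hy⟩ := hg.1 y
  rcases pl_eq_iff.1 e with e | e
  · rw [e] at hy
    have : g.1 (bv F W y) = g.1 ((t * s⁻¹) • bv F W x) := by
      rw [map_smul, hx, smul_smul, hy, inv_mul_cancel_right₀ hs]
    have h2 := congrArg (fun v : HypSpace F n W => v.1 y) (g.1.injective this)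
    have n1 : x ≠ y := fun e' => h (by rw [e'])
    simp [bv, n1.symm] at h2
  · have h2 : polar Q (g.1 (bv F W x)) (g.1 (bv F W y)) = s * t := by
      rw [hx, hy, e, polar_smul_left, polar_smul_right, polar_bv, op_op]; simp [smul_eq_mul]
    have n2 : y ≠ op x := fun e' => h (by rw [e', pl_op])
    rw [OQ_polar, polar_bv_bv Q₀ n2] at h2
    exact mul_ne_zero hs ht h2.symm

theorem Mon.apply_cv {g : OQ Q} {τ : Ix n → Ix n} {ρ : W → W} (hg : Mon Q₀ g τ ρ) (a : W) :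
    g.1 (cv F n a) = cv F n (ρ a) := hg.2 a

theorem Full.map {H : Subgroup (OQ Q)} {g : OQ Q} {τ : Ix n → Ix n} {ρ : W → W} (hg : Mon Q₀ g τ ρ)
    (hgH : g ∈ H) {x y : Ix n} (h : Full H x y) : Full H (τ x) (τ y) := by
  refine ⟨hg.pl_ne h.1, fun c => ?_⟩
  obtain ⟨s, hs, hx⟩ := hg.1 x
  obtain ⟨t, ht, hy⟩ := hg.1 y
  rw [show c = s * t * (c / (s * t)) by field_simp, ← R_conj Q₀ g h.1 (hg.pl_ne h.1) s t _ hx hy]
  exact mul_mem (mul_mem hgH (h.2 _)) (inv_mem hgH)

theorem Full.comap {H : Subgroup (OQ Q)} {g : OQ Q} {τ : Ix n → Ix n} {ρ : W → W} (hg : Mon Q₀ g τ ρ)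
    (hgH : g ∈ H) {x y : Ix n} (hxy : pl x ≠ pl y) (h : Full H (τ x) (τ y)) : Full H x y := by
  refine ⟨hxy, fun c => ?_⟩
  obtain ⟨s, hs, hx⟩ := hg.1 x
  obtain ⟨t, ht, hy⟩ := hg.1 y
  have := mul_mem (mul_mem (inv_mem hgH) (h.2 (s * t * c))) hgH
  rw [← R_conj Q₀ g hxy h.1 s t c hx hy] at this
  simpa [mul_assoc] using this

theorem K_bv (x z : Ix n) (a : W) (h : z ≠ op x) : (K Q₀ x a).1 (bv F W z) = bv F W z := by
  rw [K_apply]
  simp [h.symm]

/-- One short root group vector spreads over all indices once the long root groups are there. -/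
theorem K_of_full {H : Subgroup (OQ Q)} (hR : ∀ x y : Ix n, pl x ≠ pl y → Full H x y)
    {x : Ix n} {a : W} (h : K Q₀ x a ∈ H) {z : Ix n} (hzx : pl x ≠ pl z) (c : F) :
    K Q₀ z (c • a) ∈ H := by
  have h1 : pl z ≠ pl (op x) := by rw [pl_op]; exact Ne.symm hzx
  have e := mul_mem (mul_mem h ((hR z (op x) h1).2 c)) (inv_mem h)
  rw [K_conj_R Q₀ hzx a c] at e
  rw [Subgroup.mul_mem_cancel_right _ ((hR z x (Ne.symm hzx)).2 _),
    Subgroup.mul_mem_cancel_left _ ((hR z (op x) h1).2 c)] at e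
  exact e

/-- Short root groups over a spanning orbit. -/
theorem K_all {H : Subgroup (OQ Q)} (h2 : 2 ≤ n) (hR : ∀ x y : Ix n, pl x ≠ pl y → Full H x y)
    {g : OQ Q} {τ : Ix n → Ix n} {ρ : W → W} (hg : Mon Q₀ g τ ρ) (hgH : g ∈ H) {x₀ : Ix n} {w₀ : W}
    (h : K Q₀ x₀ w₀ ∈ H) (hspan : Submodule.span F ({w₀, ρ w₀} : Set W) = ⊤) (x : Ix n) (a : W) :
    K Q₀ x a ∈ H := by
  obtain ⟨p, hp⟩ : ∃ p : Fin n, p ≠ pl x₀ := by
    have : Nontrivial (Fin n) := Fin.nontrivial_iff_two_le.2 h2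
    exact exists_ne _
  have base : ∀ (z : Ix n) (w : W), K Q₀ z w ∈ H → ∀ (y : Ix n) (c : F), K Q₀ y (c • w) ∈ H := by
    intro z w hw y c
    by_cases hy : pl z = pl y
    · obtain ⟨q, hq⟩ : ∃ q : Fin n, q ≠ pl z := by
        have : Nontrivial (Fin n) := Fin.nontrivial_iff_two_le.2 h2
        exact exists_ne _
      have h1 : K Q₀ (Sum.inl q) w ∈ H := by
        have := K_of_full hR hw (z := Sum.inl q) (Ne.symm hq) 1
        rwa [one_smul] at this
      exact K_of_full hR h1 (z := y) (by rw [← hy]; exact hq) c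
    · exact K_of_full hR hw hy c
  let S : Submodule F W :=
    { carrier := {w | ∀ y, K Q₀ y w ∈ H}
      add_mem' := fun {u v} hu hv y => by rw [← K_mul]; exact mul_mem (hu y) (hv y)
      zero_mem' := fun y => by rw [K_zero]; exact one_mem H
      smul_mem' := fun c w hw y => base y w (hw y) y c }
  have m1 : w₀ ∈ S := fun y => by simpa using base x₀ w₀ h y 1
  have m2 : ρ w₀ ∈ S := fun y => by
    obtain ⟨s, hs, hy⟩ := hg.1 x₀
    have := mul_mem (mul_mem hgH h) (inv_mem hgH)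
    rw [K_conj Q₀ g s w₀ (ρ w₀) hy (hg.2 w₀)] at this
    have := base _ _ this y s⁻¹
    rwa [smul_smul, inv_mul_cancel₀ hs, one_smul] at this
  have : Submodule.span F ({w₀, ρ w₀} : Set W) ≤ S :=
    Submodule.span_le.2 (Set.insert_subset m1 (Set.singleton_subset_iff.2 m2))
  rw [hspan] at this
  exact this trivial x

end General

section Main

variable {k : ℕ} {Q₀ : QuadraticForm F W}

local notation "Q" => hypExt (k + 3) Q₀

/-- Shorthands for the indices. -/
abbrev eI (k : ℕ) (i : Fin (k + 3)) : Ix (k + 3) := Sum.inl i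
abbrev fI (k : ℕ) (i : Fin (k + 3)) : Ix (k + 3) := Sum.inr i

theorem sig_e0 : sig k (eI k 0) = fI k 0 := by simp [sig]
theorem sig_f0 : sig k (fI k 0) = eI k 0 := by simp [sig]
theorem sig_eL : sig k (eI k (Fin.last (k + 2))) = fI k 1 := by simp [sig]
theorem sig_fL : sig k (fI k (Fin.last (k + 2))) = eI k 1 := by simp [sig]

theorem sig_eS {i : Fin (k + 3)} (h0 : i.val ≠ 0) (h : i.val + 1 < k + 3) :
    sig k (eI k i) = eI k ⟨i.val + 1, h⟩ := by simp [sig, h0, h]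

theorem sig_fS {i : Fin (k + 3)} (h0 : i.val ≠ 0) (h : i.val + 1 < k + 3) :
    sig k (fI k i) = fI k ⟨i.val + 1, h⟩ := by simp [sig, h0, h]

theorem pl_ne_of (i j : Fin (k + 3)) (x y : Ix (k + 3)) (hx : pl x = i) (hy : pl y = j) (h : i.val ≠ j.val) :
    pl x ≠ pl y := by
  rw [hx, hy]; exact fun e => h (by rw [e])

theorem val_one' : ((1 : Fin (k + 3)) : ℕ) = 1 := Fin.val_one _

/-- A property preserved by the Coxeter element spreads over all indices outside the first plane. -/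
theorem sig_induction (P : Ix (k + 3) → Prop) (hσ : ∀ x, P x → P (sig k x)) (h1 : P (eI k 1))
    (x : Ix (k + 3)) (hx : pl x ≠ 0) : P x := by
  have up : ∀ (f : Fin (k + 3) → Ix (k + 3)), (∀ (i : Fin (k + 3)) (h : i.val + 1 < k + 3), i.val ≠ 0 →
      sig k (f i) = f ⟨i.val + 1, h⟩) → P (f 1) → ∀ (j : ℕ) (hj : j + 1 < k + 3), P (f ⟨j + 1, hj⟩) := by
    intro f hf hP j
    induction j with
    | zero =>
      intro hj
      have : (⟨0 + 1, hj⟩ : Fin (k + 3)) = 1 := Fin.ext val_one'.symm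
      rw [this]; exact hP
    | succ j ih =>
      intro hj
      have := hσ _ (ih (by omega))
      rwa [hf ⟨j + 1, by omega⟩ hj (by simp)] at this
  have he := up (eI k) (fun i h h0 => sig_eS h0 h) h1
  have hf1 : P (fI k 1) := by
    have := hσ _ (he (k + 1) (by omega))
    rwa [show (⟨k + 1 + 1, _⟩ : Fin (k + 3)) = Fin.last (k + 2) from Fin.ext rfl, sig_eL] at this
  have hf := up (fI k) (fun i h h0 => sig_fS h0 h) hf1
  rcases x with i | i <;>
  · have h0 : i.val ≠ 0 := fun e => hx (Fin.ext e)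
    have := i.isLt
    obtain ⟨j, hj⟩ : ∃ j, i.val = j + 1 := ⟨i.val - 1, by omega⟩
    have hj' : j + 1 < k + 3 := by omega
    rw [show i = ⟨j + 1, hj'⟩ from Fin.ext hj]
    first | exact he j hj' | exact hf j hj'

/-- The criterion: the roots `e₀ ± e₁`, the Coxeter element and one short root element. -/
theorem EQ_le_of_two_roots (hA : Q₀.Anisotropic) {H : Subgroup (OQ Q)} {g : OQ Q} {ρ : W → W}
    (hg : Mon Q₀ g (sig k) ρ) (hgH : g ∈ H) (h1 : Full H (eI k 0) (eI k 1)) (h2 : Full H (fI k 0) (eI k 1))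
    {x₀ : Ix (k + 3)} {w₀ : W} (hK : (∀ x y, pl x ≠ pl y → Full H x y) → K Q₀ x₀ w₀ ∈ H)
    (hspan : Submodule.span F ({w₀, ρ w₀} : Set W) = ⊤) : EQ Q ≤ H := by
  have hP : ∀ x, pl x ≠ 0 → Full H (eI k 0) x ∧ Full H (fI k 0) x :=
    sig_induction (fun x => Full H (eI k 0) x ∧ Full H (fI k 0) x) (fun x hx => by
      have a := hx.1.map hg hgH
      have b := hx.2.map hg hgH
      rw [sig_e0] at a
      rw [sig_f0] at b
      exact ⟨b, a⟩) ⟨h1, h2⟩
  have h0 : ∀ x, pl x = 0 → x = eI k 0 ∨ x = fI k 0 := by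
    rintro (i | i) h <;> cases h
    exacts [Or.inl rfl, Or.inr rfl]
  have hR : ∀ x y : Ix (k + 3), pl x ≠ pl y → Full H x y := by
    intro x y hxy
    by_cases hx : pl x = 0
    · have hy : pl y ≠ 0 := fun e => hxy (hx.trans e.symm)
      rcases h0 x hx with rfl | rfl
      exacts [(hP y hy).1, (hP y hy).2]
    by_cases hy : pl y = 0
    · rcases h0 y hy with rfl | rfl
      exacts [((hP x hx).1).symm, ((hP x hx).2).symm]
    · exact (full_comm ((hP x hx).1).symm (fun e => hy e.symm) hxy one_ne_zero ((hP y hy).2.2 1)).symm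
  exact EQ_le_of_full hA H hR (K_all (by omega) hR hg hgH (hK hR) hspan)

omit k in
theorem K_R_comm {n : ℕ} {Q₀ : QuadraticForm F W} {x u v : Ix n} (a : W) (c : F) (h : pl u ≠ pl v)
    (hu : u ≠ op x) (hv : v ≠ op x) : Commute (K Q₀ x a) (R Q₀ u v c) := by
  have e := R_conj Q₀ (K Q₀ x a) h h 1 1 c (by rw [one_smul]; exact K_bv x u a hu) (by rw [one_smul]; exact K_bv x v a hv)
  rw [one_mul, one_mul, mul_inv_eq_iff_eq_mul] at e
  exact e

/-- Fields with at least three elements. -/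
theorem exists_pair_big [Finite F] [Finite W] (hq : 3 ≤ Nat.card F) (hA : Q₀.Anisotropic) {g : OQ Q} {ρ : W → W}
    (hg : Mon Q₀ g (sig k) ρ) (hgE : g ∈ EQ Q) (w₀ : W) (hspan : Submodule.span F ({w₀, ρ w₀} : Set W) = ⊤) :
    ∃ a b, a ∈ EQ Q ∧ b ∈ EQ Q ∧ EQ Q ≤ Subgroup.closure {a, b} := by
  classical
  have := Fintype.ofFinite F
  obtain ⟨ζ, hζ⟩ := IsCyclic.exists_generator (α := Fˣ)
  have hζ1 : (ζ : F) ≠ 1 := by
    intro h
    have hone : ζ = 1 := Units.ext h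
    have hcard := Nat.card_units F
    rw [← orderOf_eq_card_of_forall_mem_zpowers hζ, hone, orderOf_one] at hcard
    omega
  set L : Fin (k + 3) := Fin.last (k + 2) with hL
  have hL0 : L.val ≠ (0 : Fin (k + 3)).val := by simp [hL]
  have hL1 : L.val ≠ (1 : Fin (k + 3)).val := by simp only [hL, Fin.val_last, val_one']; omega
  have h01 : (0 : Fin (k + 3)).val ≠ (1 : Fin (k + 3)).val := by simp [val_one']
  have n0L : pl (fI k 0) ≠ pl (fI k L) := pl_ne_of 0 L _ _ rfl rfl hL0.symm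
  have n1L : pl (eI k 1) ≠ pl (fI k L) := pl_ne_of 1 L _ _ rfl rfl hL1.symm
  have n1L' : pl (eI k 1) ≠ pl (eI k L) := pl_ne_of 1 L _ _ rfl rfl hL1.symm
  have n01 : pl (eI k 0) ≠ pl (eI k 1) := pl_ne_of 0 1 _ _ rfl rfl h01
  obtain ⟨hw, hc⟩ := tor_apply Q₀ n1L ζ.ne_zero
  set h := tor Q₀ (eI k 1) (fI k L) (ζ : F) with hh
  set wt := torWt (eI k 1) (fI k L) (ζ : F) with hwt
  have j1 : (1 : Fin (k + 3)) ≠ 0 := fun e => h01 (by rw [e])
  have j2 : L ≠ 0 := fun e => hL0 (by rw [e])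
  have j3 : L ≠ 1 := fun e => hL1 (by rw [e])
  have wf0 : wt (fI k 0) = 1 := by simp [hwt, torWt, op, j1.symm, j2.symm]
  have we0 : wt (eI k 0) = 1 := by simp [hwt, torWt, op, j1.symm, j2.symm]
  have we1 : wt (eI k 1) = ζ := by simp [hwt, torWt]
  have wfL : wt (fI k L) = ζ := by simp [hwt, torWt]
  have weL : wt (eI k L) = (ζ : F)⁻¹ := by simp [hwt, torWt, op, j3]
  -- the first generator
  set Kw := K Q₀ (fI k 0) w₀ with hKw
  set S := R Q₀ (eI k 1) (eI k L) 1 with hS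
  have hKS : Commute Kw S := K_R_comm w₀ 1 n1L' (by simp [op, j1]) (by simp [op, j2])
  have hhK : Commute h Kw := by
    have e := K_conj Q₀ h 1 w₀ w₀ (x := fI k 0) (x' := fI k 0) (by rw [hw, wf0]) (hc w₀)
    rw [one_smul, mul_inv_eq_iff_eq_mul] at e
    exact e
  have hhS : Commute h S := by
    have e := R_conj Q₀ h n1L' n1L' _ _ 1 (hw (eI k 1)) (hw (eI k L))
    rw [we1, weL, mul_inv_cancel₀ ζ.ne_zero, one_mul, mul_inv_eq_iff_eq_mul] at e
    exact e
  set a := h * (Kw * S) with ha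
  have hwpow : ∀ (m : ℕ) (z), (h ^ m).1 (bv F W z) = wt z ^ m • bv F W z ∧ ∀ v, (h ^ m).1 (cv F (k + 3) v) = cv F (k + 3) v := by
    intro m
    induction m with
    | zero => intro z; simp
    | succ m ih =>
      intro z
      refine ⟨?_, fun v => ?_⟩
      · rw [pow_succ, Subgroup.coe_mul, LinearEquiv.mul_apply, hw, map_smul, (ih z).1, smul_smul, pow_succ']
      · rw [pow_succ, Subgroup.coe_mul, LinearEquiv.mul_apply, hc, (ih z).2]
  set q := Fintype.card F with hqdef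
  have hq0 : (q : F) = 0 := FiniteField.cast_card_eq_zero F
  have hKpow : ∀ m : ℕ, Kw ^ m = K Q₀ (fI k 0) ((m : F) • w₀) := by
    intro m
    induction m with
    | zero => simp [K_zero]
    | succ m ih => rw [pow_succ, ih, hKw, K_mul]; push_cast; rw [add_smul, one_smul]
  have hSpow : ∀ m : ℕ, S ^ m = R Q₀ (eI k 1) (eI k L) (m : F) := by
    intro m
    induction m with
    | zero => simp [R_zero]
    | succ m ih => rw [pow_succ, ih, hS, R_mul]; push_cast; rfl
  have haq : a ^ q = h := by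
    rw [ha, (hhK.mul_right hhS).mul_pow, hKS.mul_pow, hKpow, hSpow, hq0, zero_smul, K_zero, R_zero, mul_one,
      mul_one]
    exact ext_basis Q₀ (fun z => by rw [(hwpow q z).1, FiniteField.pow_card, hw])
      (fun v => by rw [(hwpow q (eI k 0)).2, hc])
  -- the second generator
  set r := R Q₀ (eI k 0) (eI k 1) (1 : F) with hr
  set b := r * g with hb
  set h' := g * h * g⁻¹ with hh'
  have hρ : Function.Surjective ρ := by
    refine Finite.injective_iff_surjective.1 fun u v e => ?_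
    have e' : g.1 (cv F (k + 3) u) = g.1 (cv F (k + 3) v) := by rw [hg.2, hg.2, e]
    exact congrArg Prod.snd (g.1.injective e')
  have hw' : ∀ x, h'.1 (bv F W (sig k x)) = wt x • bv F W (sig k x) := by
    intro x
    obtain ⟨s, hs, hx⟩ := hg.1 x
    have e : (h' * g).1 (bv F W x) = (g * h).1 (bv F W x) := by rw [hh', inv_mul_cancel_right]
    simp only [Subgroup.coe_mul, LinearEquiv.mul_apply, hx, hw, map_smul] at e
    rw [smul_comm] at e
    exact smul_right_injective _ hs e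
  have hc' : ∀ v, h'.1 (cv F (k + 3) v) = cv F (k + 3) v := by
    intro v
    obtain ⟨u, rfl⟩ := hρ v
    have e : (h' * g).1 (cv F (k + 3) u) = (g * h).1 (cv F (k + 3) u) := by rw [hh', inv_mul_cancel_right]
    simpa only [Subgroup.coe_mul, LinearEquiv.mul_apply, hg.2, hc] using e
  have hcomm : h' * h * h'⁻¹ = h := by
    rw [mul_inv_eq_iff_eq_mul]
    refine ext_basis Q₀ (fun z => ?_) (fun v => ?_)
    · obtain ⟨x, rfl⟩ := sig_surjective k z
      simp only [Subgroup.coe_mul, LinearEquiv.mul_apply, hw, hw', map_smul, smul_smul, mul_comm]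
    · simp only [Subgroup.coe_mul, LinearEquiv.mul_apply, hc, hc']
  have hr1 : ∀ c, h * R Q₀ (eI k 0) (eI k 1) c * h⁻¹ = R Q₀ (eI k 0) (eI k 1) ((ζ : F) * c) := by
    intro c
    have e := R_conj Q₀ h n01 n01 _ _ c (hw (eI k 0)) (hw (eI k 1))
    rwa [we0, we1, one_mul] at e
  have hr2 : ∀ c, h' * R Q₀ (eI k 0) (eI k 1) c * h'⁻¹ = R Q₀ (eI k 0) (eI k 1) ((ζ : F) * c) := by
    intro c
    have x0 := hw' (fI k 0)
    have x1 := hw' (fI k L)
    rw [sig_f0, wf0] at x0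
    rw [hL, sig_fL, ← hL, wfL] at x1
    have e := R_conj Q₀ h' n01 n01 _ _ c x0 x1
    rwa [one_mul] at e
  refine ⟨a, b, ?_, ?_, ?_⟩
  · exact mul_mem (tor_mem_EQ Q₀ _ _ _) (mul_mem (K_mem_EQ Q₀ _ _) (R_mem_EQ Q₀ _ _ _))
  · exact mul_mem (R_mem_EQ Q₀ _ _ _) hgE
  set H := Subgroup.closure {a, b} with hH
  have haH : a ∈ H := Subgroup.subset_closure (Set.mem_insert _ _)
  have hbH : b ∈ H := Subgroup.subset_closure (Set.mem_insert_of_mem _ (Set.mem_singleton _))
  have hhH : h ∈ H := haq ▸ pow_mem haH q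
  have hyH : Kw * S ∈ H := by
    have := mul_mem (inv_mem hhH) haH
    rwa [ha, inv_mul_cancel_left] at this
  set u : F := 1 - ζ with hu
  have e1 : b * h * b⁻¹ = R Q₀ (eI k 0) (eI k 1) u * h' := by
    rw [show b * h * b⁻¹ = r * (h' * r⁻¹ * h'⁻¹) * h' by rw [hb, hh']; group, hr, R_inv, hr2, R_mul, hu]
    rw [mul_neg_one, ← sub_eq_add_neg]
  have hc0 : R Q₀ (eI k 0) (eI k 1) (u - ζ * u) ∈ H := by
    have hy1 : b * h * b⁻¹ ∈ H := mul_mem (mul_mem hbH hhH) (inv_mem hbH)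
    have := mul_mem (mul_mem (mul_mem hy1 hhH) (inv_mem hy1)) (inv_mem hhH)
    rw [e1, show R Q₀ (eI k 0) (eI k 1) u * h' * h * (R Q₀ (eI k 0) (eI k 1) u * h')⁻¹ * h⁻¹ =
      R Q₀ (eI k 0) (eI k 1) u * ((h' * h * h'⁻¹) * (R Q₀ (eI k 0) (eI k 1) u)⁻¹ * h⁻¹) by group, hcomm,
      R_inv, hr1, R_mul] at this
    rwa [mul_neg, ← sub_eq_add_neg] at this
  have hne : u - ζ * u ≠ 0 := by
    have hu0 : u ≠ 0 := sub_ne_zero.2 (Ne.symm hζ1)
    rw [show u - ζ * u = u * u by rw [hu]; ring]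
    exact mul_ne_zero hu0 hu0
  have hF01 : Full H (eI k 0) (eI k 1) := by
    refine ⟨n01, fun c => ?_⟩
    rcases eq_or_ne c 0 with rfl | hc00
    · rw [R_zero]; exact one_mem H
    obtain ⟨j, hj⟩ := mem_powers_iff_mem_zpowers.2 (hζ (Units.mk0 (c / (u - ζ * u)) (div_ne_zero hc00 hne)))
    have key : ∀ m : ℕ, R Q₀ (eI k 0) (eI k 1) ((ζ : F) ^ m * (u - ζ * u)) ∈ H := by
      intro m
      induction m with
      | zero => simpa using hc0
      | succ m ih =>
        rw [show (ζ : F) ^ (m + 1) * (u - ζ * u) = ζ * (ζ ^ m * (u - ζ * u)) by ring, ← hr1]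
        exact mul_mem (mul_mem hhH ih) (inv_mem hhH)
    have := key j
    rwa [← Units.val_pow_eq_pow_val, show ζ ^ j = _ from hj, Units.val_mk0, div_mul_cancel₀ _ hne] at this
  have hgH : g ∈ H := by
    have := mul_mem (inv_mem (hF01.2 1)) hbH
    rwa [hb, hr, inv_mul_cancel_left] at this
  have hF0L : Full H (fI k 0) (fI k L) :=
    Full.comap hg hgH n0L (by rw [sig_f0, hL, sig_fL]; exact hF01)
  have hF10 : Full H (eI k 1) (fI k 0) := by
    have n10 : pl (eI k 1) ≠ pl (fI k 0) := pl_ne_of 1 0 _ _ rfl rfl h01.symm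
    refine ⟨n10, fun c => ?_⟩
    set T := R Q₀ (fI k 0) (fI k L) c with hT
    have hcomm2 := R_commutator Q₀ (x := fI k 0) (y := fI k L) (z := eI k 1) n0L n1L.symm n10.symm c (-1)
    have hSe : R Q₀ (op (fI k L)) (eI k 1) (-1 : F) = S := by
      show R Q₀ (eI k L) (eI k 1) (-1 : F) = S
      rw [hS, R_swap Q₀ n1L'.symm, neg_neg]
    rw [hSe, ← hT] at hcomm2
    have cT : Commute Kw T := K_R_comm w₀ c n0L (by simp [op]) (by simp [op])
    have cX : Commute Kw (R Q₀ (eI k 1) (fI k 0) (c * -1)) := K_R_comm w₀ _ n10 (by simp [op, j1]) (by simp [op])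
    have e : T * (Kw * S) * T⁻¹ * (Kw * S)⁻¹ = R Q₀ (eI k 1) (fI k 0) (c * -1) := by
      rw [show T * (Kw * S) * T⁻¹ * (Kw * S)⁻¹ = (T * Kw) * S * T⁻¹ * S⁻¹ * Kw⁻¹ by group, ← cT.eq,
        show Kw * T * S * T⁻¹ * S⁻¹ * Kw⁻¹ = Kw * (T * S * T⁻¹ * S⁻¹) * Kw⁻¹ by group, hcomm2, cX.eq,
        mul_inv_cancel_right]
    have hm := mul_mem (mul_mem (mul_mem (hF0L.2 c) hyH) (inv_mem (hF0L.2 c))) (inv_mem hyH)
    rw [← hT, e, mul_neg_one] at hm
    have := inv_mem hm
    rwa [R_inv, neg_neg] at this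
  refine EQ_le_of_two_roots hA hg hgH hF01 hF10.symm (x₀ := fI k 0) (fun hR => ?_) hspan
  have := mul_mem hyH (inv_mem ((hR (eI k 1) (eI k L) n1L').2 1))
  rwa [hS, mul_inv_cancel_right] at this

end Main

section Two

variable {k : ℕ} {Q₀ : QuadraticForm F W}

local notation "Q" => hypExt (k + 3) Q₀

/-- The element of order three in the first two planes. -/
noncomputable def thr (Q₀ : QuadraticForm F W) (k : ℕ) : OQ (hypExt (k + 3) Q₀) :=
  R Q₀ (fI k 0) (eI k 1) 1 * R Q₀ (eI k 0) (fI k 1) 1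

theorem thr_mem_EQ : thr Q₀ k ∈ EQ Q := mul_mem (R_mem_EQ Q₀ _ _ _) (R_mem_EQ Q₀ _ _ _)

theorem add_self_of_two (h2 : (2 : F) = 0) {V : Type*} [AddCommGroup V] [Module F V] (v : V) : v + v = 0 := by
  rw [← two_smul F v, h2, zero_smul]

theorem neg_eq_of_two (h2 : (2 : F) = 0) {V : Type*} [AddCommGroup V] [Module F V] (v : V) : -v = v :=
  neg_eq_of_add_eq_zero_left (add_self_of_two h2 v)

theorem thr_apply (h2 : (2 : F) = 0) :
    (thr Q₀ k).1 (bv F W (eI k 0)) = bv F W (eI k 0) + bv F W (eI k 1) ∧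
      (thr Q₀ k).1 (bv F W (eI k 1)) = bv F W (eI k 0) ∧
      (thr Q₀ k).1 (bv F W (fI k 0)) = bv F W (fI k 1) ∧
      (thr Q₀ k).1 (bv F W (fI k 1)) = bv F W (fI k 0) + bv F W (fI k 1) ∧
      (∀ z, pl z ≠ 0 → pl z ≠ 1 → (thr Q₀ k).1 (bv F W z) = bv F W z) ∧
      ∀ a, (thr Q₀ k).1 (cv F (k + 3) a) = cv F (k + 3) a := by
  have h01 : (0 : Fin (k + 3)) ≠ 1 := by simp [Fin.ext_iff]
  have n1 : pl (fI k 0) ≠ pl (eI k 1) := h01
  have n2 : pl (eI k 0) ≠ pl (fI k 1) := h01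
  have hn := fun v : HypSpace F (k + 3) W => neg_eq_of_two h2 v
  have hs : ∀ v w : HypSpace F (k + 3) W, v - w = v + w := fun v w => by rw [sub_eq_add_neg, hn]
  have hn1 : (-1 : F) = 1 := neg_eq_of_two h2 (1 : F)
  simp only [thr, Subgroup.coe_mul, LinearEquiv.mul_apply, R_apply Q₀ n1, R_apply Q₀ n2, op, Sum.swap_inl,
    Sum.swap_inr]
  refine ⟨?_, ?_, ?_, ?_, fun z hz0 hz1 => ?_, fun a => ?_⟩
  · simp [h01, h01.symm, hs, hn, hn1]
  · simp [h01, h01.symm, hs, hn, hn1]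
    rw [add_comm (bv F W (Sum.inl (1 : Fin (k + 3)))) (bv F W (Sum.inl (0 : Fin (k + 3)))), add_assoc,
      add_self_of_two h2, add_zero]
  · simp [h01, h01.symm, hs, hn, hn1]
    rw [add_comm (bv F W (Sum.inr (0 : Fin (k + 3)))) (bv F W (Sum.inr (1 : Fin (k + 3)))), add_assoc,
      add_self_of_two h2, add_zero]
  · simp [h01, h01.symm, hs, hn, hn1, add_comm]
  · have : ∀ y : Ix (k + 3), pl y = 0 ∨ pl y = 1 → y ≠ z := by
      rintro y hy rfl
      rcases hy with hy | hy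
      exacts [hz0 hy, hz1 hy]
    have m1 := this (Sum.inl 0) (Or.inl rfl)
    have m2 := this (Sum.inl 1) (Or.inr rfl)
    have m3 := this (Sum.inr 0) (Or.inl rfl)
    have m4 := this (Sum.inr 1) (Or.inr rfl)
    simp [m1, m2, m3, m4, Pi.single_apply]
  · simp

theorem thr_cube (h2 : (2 : F) = 0) : thr Q₀ k ^ 3 = 1 := by
  obtain ⟨a1, a2, a3, a4, a5, a6⟩ := thr_apply (Q₀ := Q₀) (k := k) h2
  refine ext_basis Q₀ (fun z => ?_) (fun a => ?_)
  · simp only [pow_succ, pow_zero, one_mul, Subgroup.coe_mul, LinearEquiv.mul_apply, Subgroup.coe_one,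
      LinearEquiv.coe_one, id_eq]
    by_cases h0 : pl z = 0
    · rcases z with i | i <;> obtain rfl : i = 0 := h0
      · rw [a1, map_add, a1, a2, map_add, map_add, a1, a2,
          show ∀ x y : HypSpace F (k + 3) W, x + y + x = y + (x + x) by intros; abel]
        simp [add_self_of_two h2, a2]
      · rw [a3, a4, map_add, a3, a4, add_left_comm, add_self_of_two h2, add_zero]
    by_cases h1 : pl z = 1
    · rcases z with i | i <;> obtain rfl : i = 1 := h1
      · rw [a2, a1, map_add, a1, a2, add_comm (bv F W (eI k 0)) (bv F W (eI k 1)), add_assoc,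
          add_self_of_two h2, add_zero]
      · rw [a4, map_add, a3, a4, map_add, map_add, a3, a4,
          show ∀ x y : HypSpace F (k + 3) W, x + (y + x) = y + (x + x) by intros; abel]
        simp [add_self_of_two h2, a3]
    · rw [a5 z h0 h1, a5 z h0 h1, a5 z h0 h1]
  · simp only [pow_succ, pow_zero, one_mul, Subgroup.coe_mul, LinearEquiv.mul_apply, Subgroup.coe_one,
      LinearEquiv.coe_one, id_eq, a6]

theorem two_cases [Finite F] (hq : Nat.card F = 2) : (2 : F) = 0 ∧ ∀ c : F, c = 0 ∨ c = 1 := by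
  classical
  have := Fintype.ofFinite F
  rw [Nat.card_eq_fintype_card] at hq
  have hu : ({0, 1} : Finset F) = Finset.univ :=
    Finset.eq_univ_of_card _ (by rw [Finset.card_pair zero_ne_one, hq])
  refine ⟨?_, fun c => by simpa [← hu] using Finset.mem_univ c⟩
  have := FiniteField.cast_card_eq_zero F
  rw [hq] at this
  exact_mod_cast this

/-- The criterion over the field with two elements. -/
theorem EQ_le_two [Finite F] (hq : Nat.card F = 2) (hA : Q₀.Anisotropic) {H : Subgroup (OQ Q)} {g : OQ Q}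
    {ρ : W → W} (hg : Mon Q₀ g (sig k) ρ) (hgH : g ∈ H) (hM : thr Q₀ k ∈ H)
    (hr : R Q₀ (eI k 0) (eI k 1) 1 ∈ H) {x₀ : Ix (k + 3)} {w₀ : W} (hK : K Q₀ x₀ w₀ ∈ H)
    (hspan : Submodule.span F ({w₀, ρ w₀} : Set W) = ⊤) : EQ Q ≤ H := by
  obtain ⟨h2, hc⟩ := two_cases hq
  have h01 : (0 : Fin (k + 3)) ≠ 1 := by simp [Fin.ext_iff]
  have hF : Full H (eI k 0) (eI k 1) := ⟨h01, fun c => by
    rcases hc c with rfl | rfl
    · rw [R_zero]; exact one_mem H
    · exact hr⟩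
  have p2 : ((1 : Fin (k + 3)).val) + 1 < k + 3 := by rw [val_one']; omega
  set e2 : Ix (k + 3) := eI k ⟨(1 : Fin (k + 3)).val + 1, p2⟩ with he2
  have s1 : sig k (eI k 1) = e2 := sig_eS (by rw [val_one']; omega) p2
  have hA2 : Full H (fI k 0) e2 := by
    have := hF.map hg hgH
    rwa [sig_e0, s1] at this
  obtain ⟨-, -, a3, -, a5, -⟩ := thr_apply (Q₀ := Q₀) (k := k) h2
  have q0 : pl e2 ≠ 0 := by simp [he2, pl, Fin.ext_iff]
  have q1 : pl e2 ≠ 1 := by simp [he2, pl, Fin.ext_iff]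
  have hB2 : Full H (fI k 1) e2 := by
    refine ⟨Ne.symm q1, fun c => ?_⟩
    have e := R_conj Q₀ (thr Q₀ k) hA2.1 (Ne.symm q1) 1 1 c (x' := fI k 1) (y' := e2) (by rw [one_smul]; exact a3)
      (by rw [one_smul]; exact a5 e2 q0 q1)
    rw [one_mul, one_mul] at e
    rw [← e]
    exact mul_mem (mul_mem hM (hA2.2 c)) (inv_mem hM)
  have hC2 : Full H (eI k 0) e2 := full_comm hB2.symm (Ne.symm h01) q0 one_ne_zero (hF.symm.2 1)
  have hF' : Full H (fI k 0) (eI k 1) := Full.comap hg hgH h01 (by rw [sig_f0, s1]; exact hC2)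
  exact EQ_le_of_two_roots hA hg hgH hF hF' (fun _ => hK) hspan

/-- The field with two elements, no core. -/
theorem exists_pair_two_split [Finite F] [Subsingleton W] (hq : Nat.card F = 2) {g : OQ Q} {ρ : W → W}
    (hg : Mon Q₀ g (sig k) ρ) (hgE : g ∈ EQ Q) :
    ∃ a b, a ∈ EQ Q ∧ b ∈ EQ Q ∧ EQ Q ≤ Subgroup.closure {a, b} := by
  obtain ⟨h2, hc⟩ := two_cases hq
  obtain ⟨a1, a2, -, -, -, -⟩ := thr_apply (Q₀ := Q₀) (k := k) h2
  have h01 : (0 : Fin (k + 3)) ≠ 1 := by simp [Fin.ext_iff]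
  set Z := R Q₀ (eI k 0) (eI k 1) (1 : F) with hZ
  set M := thr Q₀ k with hM
  have hZ2 : Z * Z = 1 := by rw [hZ, R_mul, one_add_one_eq_two, h2, R_zero]
  have hMZ : Commute M Z := by
    have n := (show pl (eI k 0) ≠ pl (eI k 1) from h01)
    have r1 : Commute (R Q₀ (fI k 0) (eI k 1) (1 : F)) Z := by
      show _ * _ = _
      refine Subtype.ext (LinearEquiv.ext fun v => ?_)
      simp only [hZ, Subgroup.coe_mul, LinearEquiv.mul_apply, R_apply Q₀ n,
        R_apply Q₀ (show pl (fI k 0) ≠ pl (eI k 1) from h01)]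
      simp [op, h01, h01.symm]
      module
    have r2 : Commute (R Q₀ (eI k 0) (fI k 1) (1 : F)) Z := by
      show _ * _ = _
      refine Subtype.ext (LinearEquiv.ext fun v => ?_)
      simp only [hZ, Subgroup.coe_mul, LinearEquiv.mul_apply, R_apply Q₀ n,
        R_apply Q₀ (show pl (eI k 0) ≠ pl (fI k 1) from h01)]
      simp [op, h01, h01.symm]
      module
    exact r1.mul_left r2
  refine ⟨g, Z * M, hgE, mul_mem (R_mem_EQ Q₀ _ _ _) thr_mem_EQ, ?_⟩
  set H := Subgroup.closure {g, Z * M} with hH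
  have hgH : g ∈ H := Subgroup.subset_closure (Set.mem_insert _ _)
  have hbH : Z * M ∈ H := Subgroup.subset_closure (Set.mem_insert_of_mem _ (Set.mem_singleton _))
  have hb3 : (Z * M) ^ 3 = Z := by
    rw [hMZ.symm.mul_pow, hM, thr_cube h2, mul_one, pow_succ, pow_two, hZ2, one_mul]
  have hZH : Z ∈ H := hb3 ▸ pow_mem hbH 3
  have hMH : M ∈ H := by
    have := mul_mem (inv_mem hZH) hbH
    rwa [inv_mul_cancel_left] at this
  exact EQ_le_two hq (fun v _ => Subsingleton.elim v 0) hg hgH hMH hZH (x₀ := eI k 0) (w₀ := 0)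
    (by rw [K_zero]; exact one_mem H) (Subsingleton.elim _ _)

/-- Three short root elements making a long one. -/
theorem K_K_siegel (h2 : (2 : F) = 0) {x y : Ix (k + 3)} (h : pl x ≠ pl y) {w : W} (hw : Q₀ w = 1)
    (hu : Q (bv F W x + bv F W y) = 0) (hp : polar Q (bv F W x + bv F W y) (cv F (k + 3) w) = 0) :
    K Q₀ x w * K Q₀ y w * siegel Q hu hp = R Q₀ x y 1 := by
  have n1 : op x ≠ y := fun e => h (by rw [← e, pl_op])
  have n2 : op y ≠ x := fun e => h (by rw [← e, pl_op])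
  have n3 := op_ne x
  have n4 := op_ne y
  have hpol : polar Q₀ w w = 0 := by rw [polar_self, hw, two_nsmul, one_add_one_eq_two, h2]
  refine Subtype.ext (LinearEquiv.ext fun v => ?_)
  simp only [Subgroup.coe_mul, LinearEquiv.mul_apply, siegel_apply, K_apply, R_apply Q₀ h, polar_add_left,
    polar_bv_left, polar_comm _ (cv F (k + 3) w), polar_cv, Q_cv, hw, one_mul]
  simp [n1.symm, n2.symm, n3.symm, n4.symm, Pi.single_apply, polar_add_right, polar_sub_right, polar_smul_right,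
    polar_comm Q₀ v.2 w, hpol]
  match_scalars <;> ring_nf <;> simp [h2, neg_eq_of_two h2]

/-- The field with two elements, a core of rank two. -/
theorem exists_pair_two_core [Finite F] (hq : Nat.card F = 2) (hA : Q₀.Anisotropic) {g : OQ Q} {ρ : W → W}
    (hg : Mon Q₀ g (sig k) ρ) (hgE : g ∈ EQ Q) (w₀ : W) (hw : Q₀ w₀ = 1)
    (hspan : Submodule.span F ({w₀, ρ w₀} : Set W) = ⊤) :
    ∃ a b, a ∈ EQ Q ∧ b ∈ EQ Q ∧ EQ Q ≤ Subgroup.closure {a, b} := by
  obtain ⟨h2, hc⟩ := two_cases hq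
  obtain ⟨a1, a2, a3, a4, a5, a6⟩ := thr_apply (Q₀ := Q₀) (k := k) h2
  have h01 : (0 : Fin (k + 3)) ≠ 1 := by simp [Fin.ext_iff]
  set L : Fin (k + 3) := Fin.last (k + 2) with hL
  have hL0 : L ≠ 0 := by simp [hL, Fin.ext_iff]
  have hL1 : L ≠ 1 := by simp only [hL, ne_eq, Fin.ext_iff, Fin.val_last, val_one']; omega
  set Z := K Q₀ (fI k L) w₀ with hZ
  set M := thr Q₀ k with hM
  have hZ2 : Z * Z = 1 := by rw [hZ, K_mul, add_self_of_two h2, K_zero]
  have hMZ : Commute M Z := by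
    have e := K_conj Q₀ M (1 : F) w₀ w₀ (x := fI k L) (x' := fI k L) (by rw [one_smul]; exact a5 _ hL0 hL1) (a6 w₀)
    rw [one_smul, mul_inv_eq_iff_eq_mul] at e
    exact e
  refine ⟨g, Z * M, hgE, mul_mem (K_mem_EQ Q₀ _ _) thr_mem_EQ, ?_⟩
  set H := Subgroup.closure {g, Z * M} with hH
  have hgH : g ∈ H := Subgroup.subset_closure (Set.mem_insert _ _)
  have hbH : Z * M ∈ H := Subgroup.subset_closure (Set.mem_insert_of_mem _ (Set.mem_singleton _))
  have hb3 : (Z * M) ^ 3 = Z := by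
    rw [hMZ.symm.mul_pow, hM, thr_cube h2, mul_one, pow_succ, pow_two, hZ2, one_mul]
  have hZH : Z ∈ H := hb3 ▸ pow_mem hbH 3
  have hMH : M ∈ H := by
    have := mul_mem (inv_mem hZH) hbH
    rwa [inv_mul_cancel_left] at this
  set w₁ := ρ w₀ with hw1
  have hQw : Q₀ w₁ = 1 := by
    rw [hw1, ← Q_cv (n := k + 3) Q₀, ← hg.2, OQ_map_app, Q_cv, hw]
  obtain ⟨s, hs, hsx⟩ := hg.1 (fI k L)
  have hs1 : s = 1 := (hc s).resolve_left hs
  rw [hs1, hL, sig_fL, ← hL] at hsx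
  have k1 : K Q₀ (eI k 1) w₁ ∈ H := by
    have := mul_mem (mul_mem hgH hZH) (inv_mem hgH)
    rwa [hZ, K_conj Q₀ g (1 : F) w₀ w₁ hsx (hg.2 w₀), one_smul] at this
  have k0 : K Q₀ (eI k 0) w₁ ∈ H := by
    have := mul_mem (mul_mem hMH k1) (inv_mem hMH)
    rwa [K_conj Q₀ M (1 : F) w₁ w₁ (x' := eI k 0) (by rw [one_smul]; exact a2) (a6 w₁), one_smul] at this
  have n10 : pl (eI k 1) ≠ pl (eI k 0) := Ne.symm h01
  have hu : Q (bv F W (eI k 1) + bv F W (eI k 0)) = 0 := by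
    rw [QuadraticMap.map_add (⇑Q), Q_bv, Q_bv, polar_bv_bv Q₀ (by simp [op]), add_zero, add_zero]
  have hp : polar Q (bv F W (eI k 1) + bv F W (eI k 0)) (cv F (k + 3) w₁) = 0 := by simp [polar_cv]
  have k01 : siegel Q hu hp ∈ H := by
    have := mul_mem (mul_mem hMH k0) (inv_mem hMH)
    rw [K, siegel_conj] at this
    rw [siegel_congr Q _ _ hu hp (show M.1 (bv F W (eI k 0)) = bv F W (eI k 1) + bv F W (eI k 0) from a1.trans (add_comm _ _))
      (a6 w₁)] at this
    exact this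
  have hr : R Q₀ (eI k 0) (eI k 1) 1 ∈ H := by
    have := mul_mem (mul_mem k1 k0) k01
    rw [K_K_siegel h2 n10 hQw hu hp] at this
    rw [R_swap Q₀ (x := eI k 0) (y := eI k 1) h01, neg_eq_of_two h2 (1 : F)]
    exact this
  exact EQ_le_two hq hA hg hgH hMH hr hZH hspan

end Two

end Cfsg.Agent.Spec.TwoGen.Orth
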