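import Cfsg.Agent.Spec.TwoGen.OrthRoot

/-!
Monomial elements inside the Eichler subgroup: swaps, the Coxeter element, torus elements and the
element rotating the core.
-/

set_option autoImplicit false

namespace Cfsg.Agent.Spec.TwoGen.Orth

open QuadraticMap Cfsg.Agent.Classical

universe u w

variable {F : Type u} [Field F] {W : Type w} [AddCommGroup W] [Module F W] {n : ℕ}
variable (Q₀ : QuadraticForm F W)

local notation "Q" => hypExt n Q₀

/-- A map permuting the basis lines by `τ` and acting on the core by `ρ`. -/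
def Mon (g : OQ (hypExt n Q₀)) (τ : Ix n → Ix n) (ρ : W → W) : Prop :=
  (∀ x, ∃ s : F, s ≠ 0 ∧ g.1 (bv F W x) = s • bv F W (τ x)) ∧ ∀ a, g.1 (cv F n a) = cv F n (ρ a)

theorem Mon.one : Mon Q₀ (1 : OQ Q) id id :=
  ⟨fun x => ⟨1, one_ne_zero, by simp⟩, fun a => rfl⟩

variable {Q₀}

theorem Mon.mul {g g' : OQ Q} {τ τ' : Ix n → Ix n} {ρ ρ' : W → W} (h : Mon Q₀ g τ ρ) (h' : Mon Q₀ g' τ' ρ') :
    Mon Q₀ (g * g') (τ ∘ τ') (ρ ∘ ρ') := by
  refine ⟨fun x => ?_, fun a => ?_⟩
  · obtain ⟨s, hs, e⟩ := h'.1 x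
    obtain ⟨t, ht, e'⟩ := h.1 (τ' x)
    refine ⟨s * t, mul_ne_zero hs ht, ?_⟩
    rw [Subgroup.coe_mul, LinearEquiv.mul_apply, e, map_smul, e', smul_smul]
    rfl
  · rw [Subgroup.coe_mul, LinearEquiv.mul_apply, h'.2, h.2]
    rfl

theorem Mon.congr {g : OQ Q} {τ τ' : Ix n → Ix n} {ρ ρ' : W → W} (h : Mon Q₀ g τ ρ) (e : τ = τ') (e' : ρ = ρ') :
    Mon Q₀ g τ' ρ' := e ▸ e' ▸ h

variable (Q₀)

/-- The monomial element of a root. -/
noncomputable def om (x y : Ix n) (c : F) : OQ Q := R Q₀ x y c * R Q₀ (op x) (op y) c⁻¹ * R Q₀ x y c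

theorem om_mem_EQ (x y : Ix n) (c : F) : om Q₀ x y c ∈ EQ Q :=
  mul_mem (mul_mem (R_mem_EQ Q₀ _ _ _) (R_mem_EQ Q₀ _ _ _)) (R_mem_EQ Q₀ _ _ _)

theorem om_apply {x y : Ix n} (h : pl x ≠ pl y) {c : F} (hc : c ≠ 0) :
    (om Q₀ x y c).1 (bv F W (op x)) = c • bv F W y ∧
      (om Q₀ x y c).1 (bv F W (op y)) = (-c) • bv F W x ∧
      (om Q₀ x y c).1 (bv F W x) = c⁻¹ • bv F W (op y) ∧
      (om Q₀ x y c).1 (bv F W y) = (-c⁻¹) • bv F W (op x) ∧
      (∀ z, pl z ≠ pl x → pl z ≠ pl y → (om Q₀ x y c).1 (bv F W z) = bv F W z) ∧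
      ∀ a, (om Q₀ x y c).1 (cv F n a) = cv F n a := by
  have h' : pl (op x) ≠ pl (op y) := by rwa [pl_op, pl_op]
  have n1 : x ≠ y := fun e => h (by rw [e])
  have n2 : x ≠ op y := fun e => h (by rw [e, pl_op])
  have n3 : op x ≠ y := fun e => h (by rw [← e, pl_op])
  have n4 : op x ≠ op y := fun e => n1 (by rw [← op_op x, e, op_op])
  have n5 := op_ne x
  have n6 := op_ne y
  simp only [om, Subgroup.coe_mul, LinearEquiv.mul_apply, R_apply Q₀ h, R_apply Q₀ h', op_op]
  refine ⟨?_, ?_, ?_, ?_, fun z hzx hzy => ?_, fun a => ?_⟩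
  · simp [Pi.single_apply, n1, n1.symm, n2, n2.symm, n3, n3.symm, n4, n4.symm, n5, n5.symm, n6, n6.symm, hc]
  · simp [Pi.single_apply, n1, n1.symm, n2, n2.symm, n3, n3.symm, n4, n4.symm, n5, n5.symm, n6, n6.symm, hc]
    module
  · simp [Pi.single_apply, n1, n1.symm, n2, n2.symm, n3, n3.symm, n4, n4.symm, n5, n5.symm, n6, n6.symm, hc]
  · simp [Pi.single_apply, n1, n1.symm, n2, n2.symm, n3, n3.symm, n4, n4.symm, n5, n5.symm, n6, n6.symm, hc]
    module
  · have m1 : z ≠ x := fun e => hzx (by rw [e])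
    have m2 : z ≠ op x := fun e => hzx (by rw [e, pl_op])
    have m3 : z ≠ y := fun e => hzy (by rw [e])
    have m4 : z ≠ op y := fun e => hzy (by rw [e, pl_op])
    simp [Pi.single_apply, m1.symm, m2.symm, m3.symm, m4.symm]
  · simp

/-- The swap carrying `x` to `y`. -/
noncomputable def sw (x y : Ix n) : OQ Q := om Q₀ x (op y) 1

theorem sw_mem_EQ (x y : Ix n) : sw Q₀ x y ∈ EQ Q := om_mem_EQ Q₀ _ _ _

/-- Exchange of two basis lines and of their partners. -/
def trans2 (x y : Ix n) (z : Ix n) : Ix n :=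
  if z = x then y else if z = y then x else if z = op x then op y else if z = op y then op x else z

theorem sw_mon {x y : Ix n} (h : pl x ≠ pl y) : Mon Q₀ (sw Q₀ x y) (trans2 x y) id := by
  have h' : pl x ≠ pl (op y) := by rwa [pl_op]
  obtain ⟨e1, e2, e3, e4, e5, e6⟩ := om_apply Q₀ h' (one_ne_zero : (1 : F) ≠ 0)
  simp only [op_op] at e2 e3
  refine ⟨fun z => ?_, e6⟩
  have n1 : x ≠ y := fun e => h (by rw [e])
  have n3 : op x ≠ y := fun e => h (by rw [← e, pl_op])
  have n2 : op y ≠ x := fun e => h (by rw [← e, pl_op])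
  unfold trans2
  split_ifs with a1 a2 a3 a4
  · exact ⟨_, inv_ne_zero one_ne_zero, a1 ▸ e3⟩
  · exact ⟨_, neg_ne_zero.2 one_ne_zero, a2 ▸ e2⟩
  · exact ⟨_, one_ne_zero, a3 ▸ e1⟩
  · exact ⟨_, neg_ne_zero.2 (inv_ne_zero one_ne_zero), a4 ▸ e4⟩
  · refine ⟨1, one_ne_zero, ?_⟩
    rw [one_smul]
    refine e5 z (fun e => ?_) (fun e => ?_)
    · rcases pl_eq_iff.1 e.symm with e | e
      · exact a1 e
      · exact a3 e
    · rw [pl_op] at e
      rcases pl_eq_iff.1 e.symm with e | e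
      · exact a2 e
      · exact a4 e

/-- The torus element of a root: weight `c` on `x` and `y`. -/
noncomputable def tor (x y : Ix n) (c : F) : OQ Q := om Q₀ x y c * om Q₀ x y (-1)

theorem tor_mem_EQ (x y : Ix n) (c : F) : tor Q₀ x y c ∈ EQ Q := mul_mem (om_mem_EQ Q₀ _ _ _) (om_mem_EQ Q₀ _ _ _)

/-- The weights of a torus element. -/
def torWt (x y : Ix n) (c : F) (z : Ix n) : F :=
  if z = x ∨ z = y then c else if z = op x ∨ z = op y then c⁻¹ else 1

theorem tor_apply {x y : Ix n} (h : pl x ≠ pl y) {c : F} (hc : c ≠ 0) :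
    (∀ z, (tor Q₀ x y c).1 (bv F W z) = torWt x y c z • bv F W z) ∧
      ∀ a, (tor Q₀ x y c).1 (cv F n a) = cv F n a := by
  obtain ⟨e1, e2, e3, e4, e5, e6⟩ := om_apply Q₀ h hc
  obtain ⟨f1, f2, f3, f4, f5, f6⟩ := om_apply Q₀ h (neg_ne_zero.2 (one_ne_zero : (1 : F) ≠ 0))
  have n2 : x ≠ op y := fun e => h (by rw [e, pl_op])
  have n3 : op x ≠ y := fun e => h (by rw [← e, pl_op])
  have n5 := op_ne x
  have n6 := op_ne y
  refine ⟨fun z => ?_, fun a => by rw [tor, Subgroup.coe_mul, LinearEquiv.mul_apply, f6, e6]⟩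
  rw [tor, Subgroup.coe_mul, LinearEquiv.mul_apply]
  unfold torWt
  split_ifs with a1 a2
  · rcases a1 with rfl | rfl
    · rw [f3, map_smul, e2, smul_smul]; congr 1; field_simp
    · rw [f4, map_smul, e1, smul_smul]; congr 1; field_simp
  · rcases a2 with rfl | rfl
    · rw [f1, map_smul, e4, smul_smul]; congr 1; ring
    · rw [f2, map_smul, e3, smul_smul]; congr 1; ring
  · push Not at a1 a2
    have hx : pl z ≠ pl x := fun e => by
      rcases pl_eq_iff.1 e.symm with e | e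
      · exact a1.1 e
      · exact a2.1 e
    have hy : pl z ≠ pl y := fun e => by
      rcases pl_eq_iff.1 e.symm with e | e
      · exact a1.2 e
      · exact a2.2 e
    rw [f5 z hx hy, e5 z hx hy, one_smul]

/-- The monomial element of a short root. -/
noncomputable def fl (x : Ix n) (a : W) : OQ Q := K Q₀ x a * K Q₀ (op x) ((Q₀ a)⁻¹ • a) * K Q₀ x a

theorem fl_mem_EQ (x : Ix n) (a : W) : fl Q₀ x a ∈ EQ Q :=
  mul_mem (mul_mem (K_mem_EQ Q₀ _ _) (K_mem_EQ Q₀ _ _)) (K_mem_EQ Q₀ _ _)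

theorem fl_apply (x : Ix n) {a : W} (ha : Q₀ a ≠ 0) :
    (fl Q₀ x a).1 (bv F W x) = (-(Q₀ a)⁻¹) • bv F W (op x) ∧
      (fl Q₀ x a).1 (bv F W (op x)) = (-Q₀ a) • bv F W x ∧
      (∀ z, pl z ≠ pl x → (fl Q₀ x a).1 (bv F W z) = bv F W z) ∧
      ∀ v, (fl Q₀ x a).1 (cv F n v) = cv F n (v - (polar Q₀ a v / Q₀ a) • a) := by
  have hs : polar Q₀ a a = 2 * Q₀ a := by rw [polar_self, nsmul_eq_mul]; norm_num
  have hs' : polar Q₀ ((Q₀ a)⁻¹ • a) a = 2 := by
    rw [polar_smul_left, hs, smul_eq_mul]; field_simp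
  have hq : Q₀ ((Q₀ a)⁻¹ • a) = (Q₀ a)⁻¹ := by
    rw [QuadraticMap.map_smul, smul_eq_mul]; field_simp
  have n5 := op_ne x
  simp only [fl, Subgroup.coe_mul, LinearEquiv.mul_apply, K_apply, hq, op_op]
  refine ⟨?_, ?_, fun z hz => ?_, fun v => ?_⟩
  · refine Prod.ext ?_ ?_
    · funext z
      simp [n5, n5.symm, hs, polar_smul_right, polar_smul_left, polar_add_right, polar_sub_right]
      rcases eq_or_ne z x with rfl | h1
      · simp [n5.symm]; field_simp; ring
      · rcases eq_or_ne z (op x) with rfl | h2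
        · simp [n5]
        · simp [h1, h2]
    · simp [n5, n5.symm, hs, polar_smul_right, polar_smul_left, polar_add_right, polar_sub_right]
  · refine Prod.ext ?_ ?_
    · funext z
      simp [n5, n5.symm, hs, hs', polar_smul_right, polar_smul_left, polar_add_right, polar_sub_right]
      rcases eq_or_ne z x with rfl | h1
      · simp [n5.symm]; field_simp; ring
      · rcases eq_or_ne z (op x) with rfl | h2
        · simp [n5]; field_simp; ring
        · simp [h1, h2]
    · simp [n5, n5.symm, hs, hs', polar_smul_right, polar_smul_left, polar_add_right, polar_sub_right]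
      match_scalars
      field_simp
      ring
  · have m1 : z ≠ x := fun e => hz (by rw [e])
    have m2 : z ≠ op x := fun e => hz (by rw [e, pl_op])
    simp [m1.symm, m2.symm, Pi.single_apply]
  · refine Prod.ext ?_ ?_
    · funext z
      simp [n5, n5.symm, hs, hs', polar_smul_right, polar_smul_left, polar_add_right, polar_sub_right]
      rcases eq_or_ne z x with rfl | h1
      · simp [n5.symm]; field_simp; ring
      · rcases eq_or_ne z (op x) with rfl | h2
        · simp [n5]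
        · simp [h1, h2]
    · simp [n5, n5.symm, hs, hs', polar_smul_right, polar_smul_left, polar_add_right, polar_sub_right]
      match_scalars <;> field_simp <;> ring

/-- The product of two short-root monomial elements in one plane. -/
theorem fl_fl_mon (x : Ix n) {a a' : W} (ha : Q₀ a ≠ 0) (ha' : Q₀ a' ≠ 0) :
    Mon Q₀ (fl Q₀ x a' * fl Q₀ x a) id
      ((fun v => v - (polar Q₀ a' v / Q₀ a') • a') ∘ fun v => v - (polar Q₀ a v / Q₀ a) • a) := by
  obtain ⟨e1, e2, e3, e4⟩ := fl_apply Q₀ x ha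
  obtain ⟨f1, f2, f3, f4⟩ := fl_apply Q₀ x ha'
  refine ⟨fun z => ?_, fun v => by rw [Subgroup.coe_mul, LinearEquiv.mul_apply, e4, f4]; rfl⟩
  rw [Subgroup.coe_mul, LinearEquiv.mul_apply]
  by_cases hz : pl z = pl x
  · rcases pl_eq_iff.1 hz.symm with rfl | rfl
    · exact ⟨(Q₀ a)⁻¹ * Q₀ a', mul_ne_zero (inv_ne_zero ha) ha', by rw [e1, map_smul, f2, smul_smul, id, neg_mul_neg]⟩
    · exact ⟨Q₀ a * (Q₀ a')⁻¹, mul_ne_zero ha (inv_ne_zero ha'), by rw [e2, map_smul, f1, smul_smul, id, neg_mul_neg]⟩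
  · exact ⟨1, one_ne_zero, by rw [e3 z hz, f3 z hz, one_smul]; rfl⟩

section Coxeter

variable {k : ℕ}

theorem trans2_inl {m : ℕ} (p q : Fin m) (z : Ix m) :
    trans2 (Sum.inl p) (Sum.inl q) z = Sum.map (fun i => if i = p then q else if i = q then p else i)
      (fun i => if i = p then q else if i = q then p else i) z := by
  rcases z with z | z <;> simp [trans2, op] <;> split_ifs <;> rfl

theorem trans2_trans2 {m : ℕ} {x y : Ix m} (h : pl x ≠ pl y) (z : Ix m) :
    trans2 x y (trans2 x (op y) z) = if pl z = pl x ∨ pl z = pl y then op z else z := by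
  have n1 : x ≠ y := fun e => h (by rw [e])
  have n2 : x ≠ op y := fun e => h (by rw [e, pl_op])
  have n3 : op x ≠ y := fun e => h (by rw [← e, pl_op])
  have n4 : op x ≠ op y := fun e => n1 (by rw [← op_op x, e, op_op])
  have n5 := op_ne x
  have n6 := op_ne y
  by_cases hx : pl z = pl x
  · rw [if_pos (Or.inl hx)]
    rcases pl_eq_iff.1 hx.symm with rfl | rfl <;>
      simp [trans2, n1, n1.symm, n2, n2.symm, n3, n3.symm, n4, n4.symm, n5, n5.symm, n6, n6.symm]
  · by_cases hy : pl z = pl y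
    · rw [if_pos (Or.inr hy)]
      rcases pl_eq_iff.1 hy.symm with rfl | rfl <;>
        simp [trans2, n1, n1.symm, n2, n2.symm, n3, n3.symm, n4, n4.symm, n5, n5.symm, n6, n6.symm]
    · have m1 : z ≠ x := fun e => hx (by rw [e])
      have m2 : z ≠ op x := fun e => hx (by rw [e, pl_op])
      have m3 : z ≠ y := fun e => hy (by rw [e])
      have m4 : z ≠ op y := fun e => hy (by rw [e, pl_op])
      simp [trans2, hx, hy, m1, m2, m3, m4]

/-- The index map of the partial cycle of planes `1, …, j + 1`. -/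
def cycMap (k j : ℕ) (i : Fin (k + 3)) : Fin (k + 3) :=
  if h : 1 ≤ i.val ∧ i.val ≤ j ∧ i.val + 1 < k + 3 then ⟨i.val + 1, h.2.2⟩
  else if i.val = j + 1 then 1 else i

/-- Apply a map of planes to an index. -/
def mapPl {m : ℕ} (p : Fin m → Fin m) : Ix m → Ix m := Sum.map p p

/-- The values of `cycMap`. -/
theorem cycMap_val (k j : ℕ) (i : Fin (k + 3)) : (cycMap k j i : ℕ) =
    if 1 ≤ i.val ∧ i.val ≤ j ∧ i.val + 1 < k + 3 then i.val + 1 else if i.val = j + 1 then 1 else i.val := by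
  unfold cycMap
  split_ifs <;> rfl

theorem exists_cycle (Q₀ : QuadraticForm F W) : ∀ j : ℕ, j + 2 ≤ k + 2 + 1 →
    ∃ g ∈ EQ (hypExt (k + 3) Q₀), Mon Q₀ g (mapPl (cycMap k j)) id
  | 0, _ => ⟨1, one_mem _, (Mon.one Q₀).congr (by
      funext z
      have : ∀ i : Fin (k + 3), cycMap k 0 i = i := by
        intro i
        unfold cycMap
        split_ifs with h1 h2
        · omega
        · exact Fin.ext (by simp [h2])
        · rfl
      rcases z with z | z <;> simp [mapPl, this]) rfl⟩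
  | j + 1, hj => by
    obtain ⟨g, hg, hM⟩ := exists_cycle Q₀ j (by omega)
    set p : Fin (k + 3) := ⟨j + 1, by omega⟩ with hp
    set q : Fin (k + 3) := ⟨j + 2, by omega⟩ with hq
    have hpq : pl (Sum.inl p : Ix (k + 3)) ≠ pl (Sum.inl q) := by
      simp [pl, hp, hq, Fin.ext_iff]
    refine ⟨g * sw Q₀ (Sum.inl p) (Sum.inl q), mul_mem hg (sw_mem_EQ Q₀ _ _), (hM.mul (sw_mon Q₀ hpq)).congr ?_ rfl⟩
    have key : ∀ i : Fin (k + 3), cycMap k j (if i = p then q else if i = q then p else i) = cycMap k (j + 1) i := by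
      intro i
      have hi := i.isLt
      apply Fin.ext
      rw [cycMap_val, cycMap_val, apply_ite Fin.val, apply_ite Fin.val]
      simp only [Fin.ext_iff, hp, hq]
      split_ifs <;> omega
    funext z
    rw [Function.comp_apply, trans2_inl]
    rcases z with z | z <;> exact congrArg _ (key z)

/-- The index map of the Coxeter element. -/
def sig (k : ℕ) : Ix (k + 3) → Ix (k + 3)
  | .inl i => if i.val = 0 then .inr 0 else if h : i.val + 1 < k + 3 then .inl ⟨i.val + 1, h⟩ else .inr 1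
  | .inr i => if i.val = 0 then .inl 0 else if h : i.val + 1 < k + 3 then .inr ⟨i.val + 1, h⟩ else .inl 1

theorem exists_coxeter (Q₀ : QuadraticForm F W) :
    ∃ g ∈ EQ (hypExt (k + 3) Q₀), Mon Q₀ g (sig k) id := by
  obtain ⟨g, hg, hM⟩ := exists_cycle (k := k) Q₀ (k + 1) le_rfl
  have h01 : (0 : Fin (k + 3)) ≠ 1 := by simp [Fin.ext_iff]
  have ha : pl (Sum.inl 0 : Ix (k + 3)) ≠ pl (Sum.inr 1) := by simpa [pl] using h01
  have hb : pl (Sum.inl 0 : Ix (k + 3)) ≠ pl (Sum.inl 1) := by simpa [pl] using h01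
  refine ⟨sw Q₀ (Sum.inl 0) (Sum.inl 1) * sw Q₀ (Sum.inl 0) (Sum.inr 1) * g,
    mul_mem (mul_mem (sw_mem_EQ Q₀ _ _) (sw_mem_EQ Q₀ _ _)) hg,
    (((sw_mon Q₀ hb).mul (sw_mon Q₀ ha)).mul hM).congr ?_ rfl⟩
  have key : ∀ i : Fin (k + 3), cycMap k (k + 1) i =
      if i.val = 0 then 0 else if h : i.val + 1 < k + 3 then ⟨i.val + 1, h⟩ else 1 := by
    intro i
    unfold cycMap
    have hi := i.isLt
    split_ifs <;> first | rfl | (exfalso; omega) | (apply Fin.ext; simp only [Fin.val_zero]; omega)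
  funext z
  show trans2 (Sum.inl 0) (Sum.inl 1) (trans2 (Sum.inl 0) (op (Sum.inl 1)) (mapPl (cycMap k (k + 1)) z)) = _
  rw [trans2_trans2 hb]
  have key' : ∀ i : Fin (k + 3), (cycMap k (k + 1) i = 0 ∨ cycMap k (k + 1) i = 1) ↔ (i.val = 0 ∨ ¬ i.val + 1 < k + 3) := by
    intro i
    have h1v : ((1 : Fin (k + 3)) : ℕ) = 1 := Fin.val_one _
    have h0v : ((0 : Fin (k + 3)) : ℕ) = 0 := rfl
    rw [Fin.ext_iff, Fin.ext_iff, cycMap_val, h0v, h1v]
    have hi := i.isLt
    split_ifs <;> (constructor <;> intro hh <;> first | omega | (simp only [false_or, or_false, or_true] at hh ⊢; omega) | simp)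
  rcases z with z | z <;>
  · simp only [mapPl, Sum.map_inl, Sum.map_inr, pl, op, Sum.elim_inl, Sum.elim_inr, id, key', sig,
      Sum.swap_inl, Sum.swap_inr]
    by_cases h0 : z.val = 0
    · simp [h0, key]
    · by_cases h1 : z.val + 1 < k + 3
      · simp [h0, h1, key]
      · simp [h0, h1, key]

theorem sig_surjective (k : ℕ) : Function.Surjective (sig k) := by
  intro z
  have h01 : (0 : Fin (k + 3)) ≠ 1 := by simp [Fin.ext_iff]
  rcases z with i | i
  · rcases eq_or_ne i 0 with rfl | h0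
    · exact ⟨.inr 0, by simp [sig]⟩
    rcases eq_or_ne i 1 with rfl | h1
    · exact ⟨.inr (Fin.last (k + 2)), by simp [sig]⟩
    · have hi := i.isLt
      have h2 : 2 ≤ i.val := by
        simp only [ne_eq, Fin.ext_iff, Fin.val_zero, Fin.val_one] at h0 h1; omega
      refine ⟨.inl ⟨i.val - 1, by omega⟩, ?_⟩
      simp only [sig]
      rw [if_neg (by omega), dif_pos (by omega)]
      exact congrArg Sum.inl (Fin.ext (by simp only; omega))
  · rcases eq_or_ne i 0 with rfl | h0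
    · exact ⟨.inl 0, by simp [sig]⟩
    rcases eq_or_ne i 1 with rfl | h1
    · exact ⟨.inl (Fin.last (k + 2)), by simp [sig]⟩
    · have hi := i.isLt
      have h2 : 2 ≤ i.val := by
        simp only [ne_eq, Fin.ext_iff, Fin.val_zero, Fin.val_one] at h0 h1; omega
      refine ⟨.inr ⟨i.val - 1, by omega⟩, ?_⟩
      simp only [sig]
      rw [if_neg (by omega), dif_pos (by omega)]
      exact congrArg Sum.inr (Fin.ext (by simp only; omega))

end Coxeter

end Cfsg.Agent.Spec.TwoGen.Orth
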