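import Cfsg.Agent.Classical.OrthEichler
import Cfsg.Agent.Classical.OrthSimple

/-!
Root elements of an orthogonal group with split hyperbolic part: Eichler transformations on basis
vectors, monomial elements and the criterion for containing the Eichler subgroup.
-/

set_option autoImplicit false

namespace Cfsg.Agent.Spec.TwoGen.Orth

open QuadraticMap Cfsg.Agent.Classical

universe u w

variable {F : Type u} [Field F] {W : Type w} [AddCommGroup W] [Module F W] {n : ℕ}

/-- The indices of the hyperbolic basis. -/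
abbrev Ix (n : ℕ) := Fin n ⊕ Fin n

/-- The plane of an index. -/
def pl (x : Ix n) : Fin n := x.elim id id

/-- The partner of an index. -/
def op (x : Ix n) : Ix n := x.swap

@[simp] theorem op_op (x : Ix n) : op (op x) = x := by cases x <;> rfl

@[simp] theorem pl_op (x : Ix n) : pl (op x) = pl x := by cases x <;> rfl

theorem pl_eq_iff {x y : Ix n} : pl x = pl y ↔ y = x ∨ y = op x := by
  rcases x with x | x <;> rcases y with y | y <;> simp [pl, op, eq_comm]

theorem op_ne (x : Ix n) : op x ≠ x := by cases x <;> simp [op]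

/-- A basis vector. -/
def bv (F : Type u) [Field F] (W : Type w) [AddCommGroup W] [Module F W] (x : Ix n) : HypSpace F n W :=
  (Pi.single x 1, 0)

/-- A vector of the core. -/
def cv (F : Type u) [Field F] (n : ℕ) (v : W) : HypSpace F n W := (0, v)

variable (Q₀ : QuadraticForm F W)

local notation "Q" => hypExt n Q₀

theorem Q_bv (x : Ix n) : Q (bv F W x) = 0 := by
  rcases x with i | i <;> simp [hypExt_apply, bv, Pi.single_apply]

theorem polar_eq (v v' : HypSpace F n W) :
    polar Q v v' = (∑ x : Ix n, v.1 x * v'.1 (op x)) + polar Q₀ v.2 v'.2 := by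
  simp only [polar, hypExt_apply, Prod.fst_add, Prod.snd_add, Pi.add_apply, Fintype.sum_sum_type, op,
    Sum.swap_inl, Sum.swap_inr, add_mul, mul_add, Finset.sum_add_distrib]
  have : ∑ i : Fin n, v.1 (.inr i) * v'.1 (.inl i) = ∑ i : Fin n, v'.1 (.inl i) * v.1 (.inr i) :=
    Finset.sum_congr rfl fun i _ => mul_comm _ _
  rw [this]
  ring

theorem polar_bv (v : HypSpace F n W) (x : Ix n) : polar Q v (bv F W x) = v.1 (op x) := by
  classical
  rw [polar_eq, Finset.sum_eq_single (op x)]
  · simp [bv]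
  · intro y _ hy
    have : op y ≠ x := fun e => hy (by rw [← e, op_op])
    simp [bv, this]
  · simp

theorem polar_bv_left (v : HypSpace F n W) (x : Ix n) : polar Q (bv F W x) v = v.1 (op x) := by
  rw [polar_comm, polar_bv]

theorem polar_cv (v : HypSpace F n W) (a : W) : polar Q v (cv F n a) = polar Q₀ v.2 a := by
  simp [polar_eq, cv]

@[simp] theorem bv_fst (x : Ix n) : (bv F W x).1 = Pi.single x 1 := rfl

@[simp] theorem bv_snd (x : Ix n) : (bv F W x).2 = 0 := rfl

@[simp] theorem cv_fst (a : W) : (cv F n a).1 = 0 := rfl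

@[simp] theorem cv_snd (a : W) : (cv F n a).2 = a := rfl

theorem Q_cv (a : W) : Q (cv F n a) = Q₀ a := by simp [hypExt_apply, cv]

omit Q₀ in
theorem cv_add (a b : W) : cv F n (a + b) = cv F n a + cv F n b := by simp [cv]

omit Q₀ in
theorem cv_smul (c : F) (a : W) : cv F n (c • a) = c • cv F n a := by simp [cv]

omit Q₀ in
theorem cv_zero : cv F n (0 : W) = 0 := rfl

omit Q₀ in
theorem decomp (v : HypSpace F n W) : v = (∑ x : Ix n, v.1 x • bv F W x) + cv F n v.2 := by
  classical
  refine Prod.ext ?_ ?_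
  · funext y
    simp [Prod.fst_sum, Finset.sum_apply, Pi.single_apply]
    rcases y with y | y <;> simp
  · simp [Prod.snd_sum]

theorem ext_basis {g g' : OQ Q} (hb : ∀ x, g.1 (bv F W x) = g'.1 (bv F W x))
    (hc : ∀ a, g.1 (cv F n a) = g'.1 (cv F n a)) : g = g' := by
  refine Subtype.ext (LinearEquiv.ext fun v => ?_)
  rw [decomp v, map_add, map_add, map_sum, map_sum, hc]
  simp only [map_smul, hb]

/-- The root element of two indices in different planes. -/
noncomputable def R (x y : Ix n) (c : F) : OQ Q :=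
  if h : pl x ≠ pl y then siegel Q (Q_bv Q₀ x) (a := c • bv F W y)
    (by rw [polar_smul_right, polar_bv]; simp [Pi.single_apply, show op y ≠ x from fun e => h (by rw [← e, pl_op])])
  else 1

/-- The root element of an index and a core vector. -/
noncomputable def K (x : Ix n) (a : W) : OQ Q :=
  siegel Q (Q_bv Q₀ x) (a := cv F n a) (by simp [polar_cv])

theorem polar_bv_bv {x y : Ix n} (h : y ≠ op x) : polar Q (bv F W x) (bv F W y) = 0 := by
  rw [polar_bv]
  have : op y ≠ x := fun e => h (by rw [← e, op_op])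
  simp [Pi.single_apply, this]

theorem R_eq {x y : Ix n} (h : pl x ≠ pl y) (c : F) (h' : polar Q (bv F W x) (c • bv F W y) = 0) :
    R Q₀ x y c = siegel Q (Q_bv Q₀ x) h' := by
  rw [R, dif_pos h]

theorem R_apply {x y : Ix n} (h : pl x ≠ pl y) (c : F) (v : HypSpace F n W) :
    (R Q₀ x y c).1 v = v + (c * v.1 (op x)) • bv F W y - (c * v.1 (op y)) • bv F W x := by
  have hpxy : polar Q (bv F W x) (c • bv F W y) = 0 := by
    rw [polar_smul_right, polar_bv_bv Q₀ (fun e => h (by rw [e, pl_op])), smul_zero]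
  rw [R_eq Q₀ h c hpxy, siegel_apply, polar_bv_left, polar_smul_left, polar_bv_left, QuadraticMap.map_smul,
    Q_bv, smul_zero, zero_mul, zero_smul, sub_zero, smul_smul, smul_eq_mul, mul_comm c (v.1 (op x))]

theorem K_apply (x : Ix n) (a : W) (v : HypSpace F n W) :
    (K Q₀ x a).1 v = v + v.1 (op x) • cv F n a - polar Q₀ a v.2 • bv F W x - (Q₀ a * v.1 (op x)) • bv F W x := by
  rw [K, siegel_apply, polar_bv_left, polar_comm _ (cv F n a), polar_cv, polar_comm Q₀ v.2 a, Q_cv]

theorem R_mul {x y : Ix n} (c d : F) : R Q₀ x y c * R Q₀ x y d = R Q₀ x y (c + d) := by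
  by_cases h : pl x ≠ pl y
  · have hpx : ∀ c : F, polar Q (bv F W x) (c • bv F W y) = 0 := fun c => by
      rw [polar_smul_right, polar_bv_bv Q₀ (fun e => h (by rw [e, pl_op])), smul_zero]
    rw [R_eq Q₀ h c (hpx c), R_eq Q₀ h d (hpx d), R_eq Q₀ h _ (hpx _), siegel_mul]
    exact siegel_congr Q _ _ _ _ rfl (add_smul c d _).symm
  · simp [R, dif_neg h]

theorem R_zero (x y : Ix n) : R Q₀ x y (0 : F) = 1 := by
  have h := R_mul Q₀ (x := x) (y := y) (0 : F) 0
  rwa [add_zero, mul_eq_left] at h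

theorem R_inv (x y : Ix n) (c : F) : (R Q₀ x y c)⁻¹ = R Q₀ x y (-c) :=
  inv_eq_of_mul_eq_one_right (by rw [R_mul, add_neg_cancel, R_zero])

theorem R_swap {x y : Ix n} (h : pl x ≠ pl y) (c : F) : R Q₀ x y c = R Q₀ y x (-c) := by
  refine Subtype.ext (LinearEquiv.ext fun v => ?_)
  rw [R_apply Q₀ h, R_apply Q₀ (Ne.symm h)]
  simp only [neg_mul, neg_smul]
  abel

theorem K_mul (x : Ix n) (a b : W) : K Q₀ x a * K Q₀ x b = K Q₀ x (a + b) := by
  rw [K, K, K, siegel_mul]
  exact siegel_congr Q _ _ _ _ rfl (cv_add a b).symm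

theorem K_zero (x : Ix n) : K Q₀ x (0 : W) = 1 := by
  have h := K_mul Q₀ x (0 : W) 0
  rwa [add_zero, mul_eq_left] at h

theorem K_inv (x : Ix n) (a : W) : (K Q₀ x a)⁻¹ = K Q₀ x (-a) :=
  inv_eq_of_mul_eq_one_right (by rw [K_mul, add_neg_cancel, K_zero])

theorem R_mem_EQ (x y : Ix n) (c : F) : R Q₀ x y c ∈ EQ Q := by
  rw [R]
  split_ifs
  exacts [siegel_mem_EQ Q _ _, one_mem _]

theorem K_mem_EQ (x : Ix n) (a : W) : K Q₀ x a ∈ EQ Q := siegel_mem_EQ Q _ _

theorem R_conj (g : OQ Q) {x y x' y' : Ix n} (h : pl x ≠ pl y) (h' : pl x' ≠ pl y') (s t c : F)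
    (hx : g.1 (bv F W x) = s • bv F W x') (hy : g.1 (bv F W y) = t • bv F W y') :
    g * R Q₀ x y c * g⁻¹ = R Q₀ x' y' (s * t * c) := by
  rw [mul_inv_eq_iff_eq_mul]
  refine Subtype.ext (LinearEquiv.ext fun v => ?_)
  have e1 : v.1 (op x) = s * (g.1 v).1 (op x') := by
    rw [← polar_bv Q₀ v x, ← OQ_polar g v (bv F W x), hx, polar_smul_right, polar_bv, smul_eq_mul]
  have e2 : v.1 (op y) = t * (g.1 v).1 (op y') := by
    rw [← polar_bv Q₀ v y, ← OQ_polar g v (bv F W y), hy, polar_smul_right, polar_bv, smul_eq_mul]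
  simp only [Subgroup.coe_mul, LinearEquiv.mul_apply, R_apply Q₀ h, R_apply Q₀ h', map_add, map_sub, map_smul,
    hx, hy, smul_smul, e1, e2]
  module

theorem K_conj (g : OQ Q) {x x' : Ix n} (s : F) (a a' : W)
    (hx : g.1 (bv F W x) = s • bv F W x') (ha : g.1 (cv F n a) = cv F n a') :
    g * K Q₀ x a * g⁻¹ = K Q₀ x' (s • a') := by
  rw [K, siegel_conj]
  have h1 : polar Q (bv F W x') (cv F n a') = 0 := by simp [polar_cv]
  have h2 : polar Q (bv F W x') (s • cv F n a') = 0 := by rw [polar_smul_right, h1, smul_zero]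
  have h3 : polar Q (s • bv F W x') (cv F n a') = 0 := by rw [polar_smul_left, h1, smul_zero]
  rw [siegel_congr Q _ _ (u' := s • bv F W x') (a' := cv F n a') (by rw [QuadraticMap.map_smul, Q_bv, smul_zero])
      h3 hx ha, siegel_smul_left Q s (Q_bv Q₀ x') h1 _ h2 h3, K]
  exact siegel_congr Q _ _ _ _ rfl (cv_smul s a').symm

theorem R_commutator {x y z : Ix n} (hxy : pl x ≠ pl y) (hyz : pl y ≠ pl z) (hxz : pl x ≠ pl z) (c d : F) :
    R Q₀ x y c * R Q₀ (op y) z d * (R Q₀ x y c)⁻¹ * (R Q₀ (op y) z d)⁻¹ = R Q₀ z x (c * d) := by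
  have hyz' : pl (op y) ≠ pl z := by rwa [pl_op]
  have p1 : polar Q (bv F W x) (bv F W y) = 0 := polar_bv_bv Q₀ (fun e => hxy (by rw [e, pl_op]))
  have p2 : polar Q (bv F W (op y)) (d • bv F W z) = 0 := by
    rw [polar_smul_right, polar_bv_bv Q₀ (fun e => hyz (by rw [e, op_op])), smul_zero]
  have p3 : polar Q (bv F W y) (bv F W (op y)) = 1 := by
    rw [polar_bv, op_op]; simp
  have q1 : Q (c • bv F W x) = 0 := by rw [QuadraticMap.map_smul, Q_bv, smul_zero]
  have q2 : Q (d • bv F W z) = 0 := by rw [QuadraticMap.map_smul, Q_bv, smul_zero]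
  have p1' : polar Q (c • bv F W x) (bv F W y) = 0 := by rw [polar_smul_left, p1, smul_zero]
  obtain ⟨hsp, e⟩ := siegel_commutator Q (p := c • bv F W x) (q := bv F W y) (r := bv F W (op y))
    (s := d • bv F W z) q1 (Q_bv Q₀ _) q2 (Q_bv Q₀ _) p1' p2 p3
    (by rw [polar_smul_left, polar_bv_bv Q₀ (fun e => hxy ((pl_eq_iff.2 (Or.inl ?_)))), smul_zero]; exact (by
      have h' := congrArg op e; rw [op_op, op_op] at h'; exact h'))
    (by rw [polar_smul_left, polar_smul_right, polar_bv_bv Q₀ (fun e => hxz (by rw [e, pl_op])), smul_zero, smul_zero])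
    (by rw [polar_smul_right, polar_bv_bv Q₀ (fun e => hyz (by rw [e, pl_op])), smul_zero])
  have p1'' : polar Q (bv F W x) (c • bv F W y) = 0 := by rw [polar_smul_right, p1, smul_zero]
  rw [siegel_smul_left Q c (Q_bv Q₀ x) p1 q1 p1'' p1', ← R_eq Q₀ hxy c p1'', ← R_eq Q₀ hyz' d p2] at e
  rw [← e]
  have p4 : polar Q (bv F W z) (c • bv F W x) = 0 := by
    rw [polar_smul_right, polar_bv_bv Q₀ (fun e => hxz (by rw [e, pl_op])), smul_zero]
  have p5 : polar Q (bv F W z) (d • c • bv F W x) = 0 := by rw [polar_smul_right, p4, smul_zero]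
  rw [siegel_smul_left Q d (Q_bv Q₀ z) p4 q2 p5 hsp,
    R_eq Q₀ (Ne.symm hxz) (c * d) (by rw [mul_comm, mul_smul]; exact p5)]
  exact siegel_congr Q _ _ _ _ rfl (by rw [mul_comm, mul_smul])

theorem K_conj_R {x z : Ix n} (h : pl x ≠ pl z) (a : W) (c : F) :
    K Q₀ x a * R Q₀ z (op x) c * (K Q₀ x a)⁻¹ =
      R Q₀ z (op x) c * K Q₀ z (c • a) * R Q₀ z x (-(c * Q₀ a)) := by
  have hzx : pl z ≠ pl (op x) := by rw [pl_op]; exact Ne.symm h
  have h0 : ∀ y : Ix n, pl z ≠ pl y → ∀ c : F, polar Q (bv F W z) (c • bv F W y) = 0 := fun y hy c => by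
    rw [polar_smul_right, polar_bv_bv Q₀ (fun e => hy (by rw [e, pl_op])), smul_zero]
  have hcv : polar Q (bv F W z) (cv F n (c • a)) = 0 := by simp [polar_cv]
  rw [R_eq Q₀ hzx c (h0 _ hzx c), R_eq Q₀ (Ne.symm h) _ (h0 _ (Ne.symm h) _), K, K, siegel_conj,
    siegel_mul, siegel_mul]
  have hz : (K Q₀ x a).1 (bv F W z) = bv F W z := by
    rw [K_apply]
    have : op x ≠ z := fun e => h (by rw [← e, pl_op])
    simp [this]
  refine siegel_congr Q _ _ _ _ hz ?_
  show (K Q₀ x a).1 (c • bv F W (op x)) = _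
  rw [map_smul, K_apply, cv_smul]
  simp only [bv_fst, bv_snd, Pi.single_eq_same, polar_zero_right]
  module

variable {Q₀}

/-- A subgroup contains a root subgroup. -/
def Full (H : Subgroup (OQ Q)) (x y : Ix n) : Prop := pl x ≠ pl y ∧ ∀ c : F, R Q₀ x y c ∈ H

theorem Full.symm {H : Subgroup (OQ Q)} {x y : Ix n} (h : Full H x y) : Full H y x :=
  ⟨Ne.symm h.1, fun c => by
    rw [R_swap Q₀ (Ne.symm h.1)]
    exact h.2 _⟩

theorem full_comm {H : Subgroup (OQ Q)} {x y z : Ix n} (h1 : Full H x y) (hyz : pl y ≠ pl z)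
    (hxz : pl x ≠ pl z) {d : F} (hd : d ≠ 0) (h2 : R Q₀ (op y) z d ∈ H) : Full H z x := by
  refine ⟨Ne.symm hxz, fun c => ?_⟩
  rw [show c = (c / d) * d by field_simp, ← R_commutator Q₀ h1.1 hyz hxz]
  exact mul_mem (mul_mem (mul_mem (h1.2 _) h2) (inv_mem (h1.2 _))) (inv_mem h2)

/-- A subgroup with all root subgroups contains the Eichler subgroup. -/
theorem EQ_le_of_full (hA : Q₀.Anisotropic) (H : Subgroup (OQ Q))
    (hR : ∀ x y : Ix n, pl x ≠ pl y → Full H x y) (hK : ∀ (x : Ix n) (a : W), K Q₀ x a ∈ H) : EQ Q ≤ H := by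
  classical
  -- at basis vectors
  have hbase : ∀ (x : Ix n) (a : HypSpace F n W) (ha : polar Q (bv F W x) a = 0),
      siegel Q (Q_bv Q₀ x) ha ∈ H := by
    intro x
    have key : ∀ (S : Finset (Ix n)) (f : Ix n → F) (w' : W), f (op x) = 0 →
        ∀ ha : polar Q (bv F W x) ((∑ y ∈ S, f y • bv F W y) + cv F n w') = 0,
          siegel Q (Q_bv Q₀ x) ha ∈ H := by
      intro S f w' hf
      induction S using Finset.induction with
      | empty =>
        intro ha
        rw [siegel_congr Q _ ha (Q_bv Q₀ x) (a' := cv F n w') (by simp [polar_cv]) rfl (by simp)]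
        exact hK x w'
      | insert y S hy ih =>
        intro ha
        have hS : ∀ S : Finset (Ix n), polar Q (bv F W x) ((∑ y ∈ S, f y • bv F W y) + cv F n w') = 0 := by
          intro S
          rw [polar_bv_left, Prod.fst_add, Prod.fst_sum]
          simp [Finset.sum_apply, Pi.single_apply, hf]
        by_cases hxy : pl x = pl y
        · rcases pl_eq_iff.1 hxy with rfl | rfl
          · have e : (∑ z ∈ insert y S, f z • bv F W z) + cv F n w' =
                ((∑ z ∈ S, f z • bv F W z) + cv F n w') + f y • bv F W y := by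
              rw [Finset.sum_insert hy]; abel
            have h' : polar Q (bv F W y) (((∑ z ∈ S, f z • bv F W z) + cv F n w') + f y • bv F W y) = 0 := e ▸ ha
            rw [siegel_congr Q _ ha (Q_bv Q₀ y) h' rfl e, siegel_add_self Q _ (Q_bv Q₀ y) (hS S) h']
            exact ih (hS S)
          · have e : (∑ z ∈ insert (op x) S, f z • bv F W z) + cv F n w' =
                (∑ z ∈ S, f z • bv F W z) + cv F n w' := by
              rw [Finset.sum_insert hy, hf, zero_smul, zero_add]
            rw [siegel_congr Q _ ha (Q_bv Q₀ x) (hS S) rfl e]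
            exact ih (hS S)
        · have hxy' : polar Q (bv F W x) (f y • bv F W y) = 0 := by
            rw [polar_smul_right, polar_bv_bv Q₀ (fun e => hxy (by rw [e, pl_op])), smul_zero]
          have := mul_mem ((hR x y hxy).2 (f y)) (ih (hS S))
          rw [R_eq Q₀ hxy _ hxy', siegel_mul] at this
          have e : (∑ z ∈ insert y S, f z • bv F W z) + cv F n w' =
              f y • bv F W y + ((∑ z ∈ S, f z • bv F W z) + cv F n w') := by
            rw [Finset.sum_insert hy, add_assoc]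
          rw [siegel_congr Q _ ha (Q_bv Q₀ x) (e ▸ ha) rfl e]
          exact this
    intro a ha
    have hf : a.1 (op x) = 0 := by rw [← polar_bv_left Q₀ a x, ha]
    have ha' : polar Q (bv F W x) ((∑ y : Ix n, a.1 y • bv F W y) + cv F n a.2) = 0 := by rw [← decomp a]; exact ha
    rw [siegel_congr Q _ ha (Q_bv Q₀ x) ha' rfl (decomp a)]
    exact key Finset.univ _ _ hf ha'
  rw [EQ, Subgroup.closure_le]
  rintro g ⟨v, a, hv, ha, rfl⟩
  rcases eq_or_ne v 0 with rfl | hv0
  · have : siegel Q hv ha = 1 := by ext u <;> simp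
    rw [this]; exact one_mem H
  obtain ⟨x, hx⟩ : ∃ x, v.1 x ≠ 0 := by
    by_contra hcon
    push Not at hcon
    apply hv0
    have h2 : v.2 = 0 := hA v.2 (by simpa [hypExt_apply, hcon] using hv)
    exact Prod.ext (funext hcon) h2
  set c := v.1 x with hc
  have hQc : Q (c • bv F W x) = 0 := by rw [QuadraticMap.map_smul, Q_bv, smul_zero]
  have hp1 : polar Q (bv F W (op x)) (c⁻¹ • v) = 1 := by
    rw [polar_smul_right, polar_bv_left, op_op, smul_eq_mul, ← hc, inv_mul_cancel₀ hx]
  have hp2 : polar Q (bv F W (op x)) (bv F W x) = 1 := by rw [polar_bv_left, op_op]; simp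
  obtain ⟨ha', e1, e2⟩ := siegel_move (Q_bv Q₀ (op x)) (y := c⁻¹ • v) (z := bv F W x)
    (by rw [QuadraticMap.map_smul, hv, smul_zero, Q_bv]) hp1 hp2
  set g := siegel Q (Q_bv Q₀ (op x)) ha' with hg
  have hgH : g ∈ H := hbase _ _ ha'
  have hgv : g.1 v = c • bv F W x := by
    rw [← e2, ← map_smul, smul_smul, mul_inv_cancel₀ hx, one_smul]
  have hga : polar Q (c • bv F W x) (g.1 a) = 0 := by rw [← hgv, OQ_polar, ha]
  have key : g * siegel Q hv ha * g⁻¹ ∈ H := by
    rw [siegel_conj, siegel_congr Q _ _ hQc hga hgv rfl,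
      siegel_smul_left Q c (Q_bv Q₀ x) (by
        rw [polar_smul_left, smul_eq_mul] at hga; exact (mul_eq_zero.1 hga).resolve_left hx) hQc (by
        rw [polar_smul_right, ← polar_smul_left, hga]) hga]
    exact hbase _ _ _
  have := mul_mem (mul_mem (inv_mem hgH) key) hgH
  rwa [show g⁻¹ * (g * siegel Q hv ha * g⁻¹) * g = siegel Q hv ha by group] at this

end Cfsg.Agent.Spec.TwoGen.Orth
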